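import Cfsg.Agent.RankOne.Line

set_option autoImplicit false

/-!
# Abstract root subgroups: the chain A, B, C with [A,B], [B,C] in S (S5030)
-/

namespace Cfsg.Agent.RankOne

open Cfsg
open scoped commutatorElement

variable {G : Type*} [Group G] {S : Set (Subgroup G)}

theorem mul_conj_mem_of_normalizer {N : Subgroup G} {x n : G} (hx : x ∈ Subgroup.normalizer (N : Set G)) (hn : n ∈ N) :
    x * n * x⁻¹ ∈ N := (Subgroup.mem_normalizer_iff.mp hx n).mp hn

theorem commutator_sup_left_le {P Q R N : Subgroup G} (hP : P ≤ Subgroup.normalizer (N : Set G))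
    (hQ : Q ≤ Subgroup.normalizer (N : Set G)) (h1 : ⁅P, R⁆ ≤ N) (h2 : ⁅Q, R⁆ ≤ N) : ⁅P ⊔ Q, R⁆ ≤ N := by
  rw [Subgroup.commutator_le]
  intro x hx r hr
  refine sup_induction (p := fun x => ⁅x, r⁆ ∈ N) (by simp) ?_ ?_ hx
  · intro a ha y hy
    rw [commutatorElement_mul_left_eq_conj_mul]
    exact N.mul_mem (mul_conj_mem_of_normalizer (hP ha) hy) (h1 (Subgroup.commutator_mem_commutator ha hr))
  · intro a ha y hy
    rw [commutatorElement_mul_left_eq_conj_mul]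
    exact N.mul_mem (mul_conj_mem_of_normalizer (hQ ha) hy) (h2 (Subgroup.commutator_mem_commutator ha hr))

theorem commutator_sup_right_le {P Q R N : Subgroup G} (hP : P ≤ Subgroup.normalizer (N : Set G))
    (hQ : Q ≤ Subgroup.normalizer (N : Set G)) (h1 : ⁅R, P⁆ ≤ N) (h2 : ⁅R, Q⁆ ≤ N) : ⁅R, P ⊔ Q⁆ ≤ N := by
  rw [Subgroup.commutator_comm]
  exact commutator_sup_left_le hP hQ (by rwa [Subgroup.commutator_comm]) (by rwa [Subgroup.commutator_comm])

theorem commutator_closure_le {s : Set G} {R N : Subgroup G} (hs : ∀ x ∈ s, x ∈ Subgroup.normalizer (N : Set G))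
    (h : ∀ x ∈ s, ∀ r ∈ R, ⁅x, r⁆ ∈ N) : ⁅Subgroup.closure s, R⁆ ≤ N := by
  rw [Subgroup.commutator_le]
  intro x hx r hr
  have hcl : Subgroup.closure s ≤ Subgroup.normalizer (N : Set G) := (Subgroup.closure_le _).mpr hs
  induction hx using Subgroup.closure_induction with
  | mem x hx => exact h x hx r hr
  | one => simp
  | mul x y hx hy ihx ihy =>
    rw [commutatorElement_mul_left_eq_conj_mul]
    exact N.mul_mem (mul_conj_mem_of_normalizer (hcl hx) ihy) ihx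
  | inv x hx ihx =>
    rw [commutatorElement_inv_left, ← commutatorElement_inv]
    have := mul_conj_mem_of_normalizer (Subgroup.inv_mem _ (hcl hx)) (N.inv_mem ihx)
    rwa [inv_inv] at this

theorem commutator_eq_bot_sup_left {P Q R : Subgroup G} (h1 : ⁅P, R⁆ = ⊥) (h2 : ⁅Q, R⁆ = ⊥) : ⁅P ⊔ Q, R⁆ = ⊥ := by
  rw [Subgroup.commutator_eq_bot_iff_le_centralizer] at *
  exact sup_le h1 h2

theorem commutator_eq_bot_sup_right {P Q R : Subgroup G} (h1 : ⁅R, P⁆ = ⊥) (h2 : ⁅R, Q⁆ = ⊥) : ⁅R, P ⊔ Q⁆ = ⊥ := by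
  rw [Subgroup.commutator_comm] at h1 h2 ⊢
  exact commutator_eq_bot_sup_left h1 h2

theorem commutator_eq_bot_mono {P Q P' Q' : Subgroup G} (h : ⁅P, Q⁆ = ⊥) (h1 : P' ≤ P) (h2 : Q' ≤ Q) : ⁅P', Q'⁆ = ⊥ := by
  rw [eq_bot_iff, ← h]
  exact Subgroup.commutator_mono h1 h2

theorem le_normalizer_of_commutator_eq_bot {P N : Subgroup G} (h : ⁅N, P⁆ = ⊥) : P ≤ Subgroup.normalizer (N : Set G) := by
  rw [Subgroup.le_normalizer_iff_commutator_le_left, h]; exact bot_le

theorem commutator_self_eq_bot_of {P : Subgroup G} (h : IsMulCommutative P) : ⁅P, P⁆ = ⊥ :=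
  Subgroup.commutator_self_eq_bot_iff.mpr h

/-- class two groups generated by a pair in the commutator case -/
theorem class_two (hS : IsRootSubgroupSet S) {P Q : Subgroup G} (hP : P ∈ S) (hQ : Q ∈ S)
    (h : RootCommutatorCase S P Q) : ⁅⁅P ⊔ Q, P ⊔ Q⁆, P ⊔ Q⁆ = ⊥ := by
  have h1 : ⁅⁅P, Q⁆, P ⊔ Q⁆ = ⊥ := commutator_eq_bot_of h.2.1
  have hN : P ⊔ Q ≤ Subgroup.normalizer (⁅P, Q⁆ : Subgroup G) := le_normalizer_of_commutator_eq_bot h1
  have hPN := le_sup_left.trans hN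
  have hQN := le_sup_right.trans hN
  have h2 : ⁅P ⊔ Q, P ⊔ Q⁆ ≤ ⁅P, Q⁆ := by
    apply commutator_sup_left_le hPN hQN
    · apply commutator_sup_right_le hPN hQN
      · rw [commutator_self_eq_bot_of (hS.commutative P hP)]; exact bot_le
      · exact le_rfl
    · apply commutator_sup_right_le hPN hQN
      · rw [Subgroup.commutator_comm]
      · rw [commutator_self_eq_bot_of (hS.commutative Q hQ)]; exact bot_le
  exact commutator_eq_bot_mono h1 h2 le_rfl

section Chain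

variable {A B C : Subgroup G}

/-- A and a B-conjugate of C never form a rank one pair -/
theorem chain_not_pair (hS : IsRootSubgroupSet S) (hA : A ∈ S) (hC : C ∈ S)
    (hBC : RootCommutatorCase S B C) (hAC : ⁅A, C⁆ = ⊥) {b : G} (hb : b ∈ B) :
    ¬ IsRankOnePair A (conjBy C b) := by
  intro hp
  obtain ⟨c, hc, hc1⟩ := exists_ne_one_of_mem hS hC
  have hc1mem : b * c * b⁻¹ ∈ conjBy C b := conj_mem_conjBy b hc
  have hc1ne : b * c * b⁻¹ ≠ 1 := by
    intro h0
    apply hc1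
    have : c = b⁻¹ * (b * c * b⁻¹) * b := by group
    rw [this, h0]; group
  have hdecomp : b * c * b⁻¹ = ⁅b, c⁆ * c := by rw [commutatorElement_def]; group
  have hconj : conjBy A (b * c * b⁻¹) = conjBy A ⁅b, c⁆ := by
    rw [hdecomp, conjBy_mul]
    congr 1
    apply conjBy_of_centralizer
    intro a ha
    exact (commute_of_commutator_eq_bot hAC ha hc).symm
  have hopp : IsRankOnePair A (conjBy A (b * c * b⁻¹)) :=
    pair_of_mem (symm hp) (right_mem_unipotent (symm hp))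
      (conjBy_mem_unipotent (right_mem_unipotent (symm hp)) (mem_sup_left' hc1mem))
      (conjBy_ne (symm hp) hc1mem hc1ne).symm
  have he : ⁅b, c⁆ ∈ ⁅B, C⁆ := Subgroup.commutator_mem_commutator hb hc
  have hEA : IsRankOnePair ⁅B, C⁆ A := pair_of_conj hS hA hBC.1 he (by rw [← hconj]; exact hopp)
  have he1 : ⁅b, c⁆ ≠ 1 := by
    intro h0
    rw [h0, conjBy_one] at hconj
    exact conjBy_ne (symm hp) hc1mem hc1ne hconj
  obtain ⟨a, ha, hEa⟩ := exists_conjBy_right_of_eq (symm hp) hEA hc1mem he hc1ne he1 hconj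
  have hEC1 : ⁅B, C⁆ ≠ conjBy C b := by
    intro h0
    have h1 : C = conjBy ⁅B, C⁆ b⁻¹ := by
      rw [h0, conjBy_conjBy, inv_mul_cancel, conjBy_one]
    have h2 : conjBy ⁅B, C⁆ b⁻¹ = ⁅B, C⁆ := by
      apply conjBy_of_centralizer
      intro x hx
      exact commutator_commute_left hBC (B.inv_mem hb) hx
    rw [h2] at h1
    have := ne_commutator hS (RootCommutatorCase_symm hBC)
    rw [Subgroup.commutator_comm] at this
    exact this h1
  have hm : ⁅B, C⁆ ∈ unipotentSubgroups (conjBy C b) A := by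
    rw [hEa]; exact conjBy_mem_unipotent left_mem_unipotent (mem_sup_right' ha)
  have hpair : IsRankOnePair ⁅B, C⁆ (conjBy C b) := pair_of_mem (symm hp) hm left_mem_unipotent hEC1
  apply pair_not_commute hpair
  intro x hx y hy
  exact hBC.2.1 x hx y (conjBy_le_of_mem le_sup_right (mem_sup_left' hb) hy)

theorem chain_D_commute (hAB : RootCommutatorCase S A B) {b : G} (hb : b ∈ B) (hb1 : b ≠ 1) {T : Subgroup G}
    (h : ∀ a ∈ A, ∀ t ∈ T, (a * b⁻¹ * a⁻¹ * b) * t = t * (a * b⁻¹ * a⁻¹ * b)) : ⁅⁅A, B⁆, T⁆ = ⊥ := by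
  rw [Subgroup.commutator_eq_bot_iff_le_centralizer, ← hAB.2.2.2 b⁻¹ (B.inv_mem hb) (by simpa using hb1),
    Subgroup.closure_le]
  rintro _ ⟨a, ha, rfl⟩
  rw [SetLike.mem_coe, Subgroup.mem_centralizer_iff]
  intro t ht
  show t * (a * b⁻¹ * a⁻¹ * b⁻¹⁻¹) = (a * b⁻¹ * a⁻¹ * b⁻¹⁻¹) * t
  rw [inv_inv]
  exact (h a ha t ht).symm

/-- D ≤ A ⊔ A^b -/
theorem chain_D_le (hAB : RootCommutatorCase S A B) {b : G} (hb : b ∈ B) (hb1 : b ≠ 1) :
    ⁅A, B⁆ ≤ A ⊔ conjBy A b⁻¹ := by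
  rw [← hAB.2.2.2 b⁻¹ (B.inv_mem hb) (by simpa using hb1), Subgroup.closure_le]
  rintro _ ⟨a, ha, rfl⟩
  have h1 : (fun a => a * b⁻¹ * a⁻¹ * b⁻¹⁻¹) a = a * (b⁻¹ * a⁻¹ * b⁻¹⁻¹) := by
    simp only [mul_assoc]
  rw [h1]
  exact Subgroup.mul_mem _ (mem_sup_left' ha) (mem_sup_right' (conj_mem_conjBy b⁻¹ (A.inv_mem ha)))

/-- conjugation by b ∈ B fixes D = [A,B] and preserves commuting with D -/
theorem chain_transfer (hAB : RootCommutatorCase S A B) {b : G} (hb : b ∈ B) {T : Subgroup G} :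
    ⁅⁅A, B⁆, conjBy T b⁆ = ⊥ ↔ ⁅⁅A, B⁆, T⁆ = ⊥ := by
  have h1 : conjBy ⁅A, B⁆ b = ⁅A, B⁆ := conjBy_of_centralizer fun x hx => commutator_commute_right hAB hb hx
  have h2 : conjBy ⁅⁅A, B⁆, T⁆ b = ⁅⁅A, B⁆, conjBy T b⁆ := by rw [conjBy_commutator, h1]
  rw [← h2, conjBy_eq_bot]

theorem chain_iff (hS : IsRootSubgroupSet S) (hA : A ∈ S)
    (hAB : RootCommutatorCase S A B) (hAC : ⁅A, C⁆ = ⊥) {b : G} (hb : b ∈ B) (hb1 : b ≠ 1) :
    (⁅A, conjBy C b⁻¹⁆ = ⊥ ↔ ⁅⁅A, B⁆, C⁆ = ⊥) ∧ (⁅conjBy A b⁻¹, C⁆ = ⊥ ↔ ⁅⁅A, B⁆, C⁆ = ⊥) := by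
  have hA1C1 : ⁅conjBy A b⁻¹, conjBy C b⁻¹⁆ = ⊥ := by rw [← conjBy_commutator, hAC, conjBy_bot]
  have hb' : b⁻¹ ∈ B := B.inv_mem hb
  refine ⟨⟨?_, ?_⟩, ⟨?_, ?_⟩⟩
  · intro h
    rw [← chain_transfer hAB hb']
    apply chain_D_commute hAB hb hb1
    intro a ha t ht
    have h1 := commute_of_commutator_eq_bot h ha ht
    have h2 : b⁻¹ * a⁻¹ * b⁻¹⁻¹ ∈ conjBy A b⁻¹ := conj_mem_conjBy b⁻¹ (A.inv_mem ha)
    rw [inv_inv] at h2
    have h3 := commute_of_commutator_eq_bot hA1C1 h2 ht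
    calc (a * b⁻¹ * a⁻¹ * b) * t = a * ((b⁻¹ * a⁻¹ * b) * t) := by group
      _ = a * (t * (b⁻¹ * a⁻¹ * b)) := by rw [h3]
      _ = (a * t) * (b⁻¹ * a⁻¹ * b) := by group
      _ = (t * a) * (b⁻¹ * a⁻¹ * b) := by rw [h1]
      _ = t * (a * b⁻¹ * a⁻¹ * b) := by group
  · intro h
    rw [← chain_transfer hAB hb'] at h
    apply commutator_eq_bot_of
    intro a ha t ht
    have h2 : b⁻¹ * a * b⁻¹⁻¹ ∈ conjBy A b⁻¹ := conj_mem_conjBy b⁻¹ ha
    rw [inv_inv] at h2
    have h3 := commute_of_commutator_eq_bot hA1C1 h2 ht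
    have h4 : a * b⁻¹ * a⁻¹ * b ∈ ⁅A, B⁆ := by
      have := Subgroup.commutator_mem_commutator ha hb'
      rwa [commutatorElement_def, inv_inv] at this
    have h5 := commute_of_commutator_eq_bot h h4 ht
    calc a * t = (a * b⁻¹ * a⁻¹ * b) * ((b⁻¹ * a * b) * t) := by group
      _ = (a * b⁻¹ * a⁻¹ * b) * (t * (b⁻¹ * a * b)) := by rw [h3]
      _ = ((a * b⁻¹ * a⁻¹ * b) * t) * (b⁻¹ * a * b) := by group
      _ = (t * (a * b⁻¹ * a⁻¹ * b)) * (b⁻¹ * a * b) := by rw [h5]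
      _ = t * a := by group
  · intro h
    apply chain_D_commute hAB hb hb1
    intro a ha t ht
    have h1 := commute_of_commutator_eq_bot hAC ha ht
    have h2 : b⁻¹ * a⁻¹ * b⁻¹⁻¹ ∈ conjBy A b⁻¹ := conj_mem_conjBy b⁻¹ (A.inv_mem ha)
    rw [inv_inv] at h2
    have h3 := commute_of_commutator_eq_bot h h2 ht
    calc (a * b⁻¹ * a⁻¹ * b) * t = a * ((b⁻¹ * a⁻¹ * b) * t) := by group
      _ = a * (t * (b⁻¹ * a⁻¹ * b)) := by rw [h3]
      _ = (a * t) * (b⁻¹ * a⁻¹ * b) := by group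
      _ = (t * a) * (b⁻¹ * a⁻¹ * b) := by rw [h1]
      _ = t * (a * b⁻¹ * a⁻¹ * b) := by group
  · intro h
    exact commutator_eq_bot_mono (commutator_eq_bot_sup_left hAC h) (conjBy_le_sup_commutator A B hb') le_rfl

/-- commutator series for R = ⟨A,B,C⟩ -/
theorem chain_all (hS : IsRootSubgroupSet S) (hA : A ∈ S) (hB : B ∈ S) (hC : C ∈ S)
    (hAB : RootCommutatorCase S A B) (hBC : RootCommutatorCase S B C) (hAC : ⁅A, C⁆ = ⊥)
    {b : G} (hb : b ∈ B) (hb1 : b ≠ 1) :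
    ((IsMulCommutative ↥(A ⊔ conjBy C b⁻¹) ∧ IsMulCommutative ↥(conjBy A b⁻¹ ⊔ C)) ∨
      ((¬ IsMulCommutative ↥(A ⊔ conjBy C b⁻¹) ∧
          ⁅⁅A ⊔ conjBy C b⁻¹, A ⊔ conjBy C b⁻¹⁆, A ⊔ conjBy C b⁻¹⁆ = ⊥) ∧
        (¬ IsMulCommutative ↥(conjBy A b⁻¹ ⊔ C) ∧
          ⁅⁅conjBy A b⁻¹ ⊔ C, conjBy A b⁻¹ ⊔ C⁆, conjBy A b⁻¹ ⊔ C⁆ = ⊥))) ∧
    ⁅A ⊔ conjBy C b⁻¹, conjBy A b⁻¹ ⊔ C⁆ = ⊥ ∧
    (∀ r ∈ A ⊔ B ⊔ C, conjBy ((A ⊔ conjBy C b⁻¹) ⊔ (conjBy A b⁻¹ ⊔ C)) r =
      (A ⊔ conjBy C b⁻¹) ⊔ (conjBy A b⁻¹ ⊔ C)) ∧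
    ((A ⊔ conjBy C b⁻¹) ⊔ (conjBy A b⁻¹ ⊔ C)) ⊔ B = A ⊔ B ⊔ C ∧
    Group.IsNilpotent ↥(A ⊔ B ⊔ C) := by
  have hb' : b⁻¹ ∈ B := B.inv_mem hb
  have hb1' : b⁻¹ ≠ 1 := by simpa using hb1
  set A1 := conjBy A b⁻¹ with hA1
  set C1 := conjBy C b⁻¹ with hC1
  set D := ⁅A, B⁆ with hD
  set E := ⁅B, C⁆ with hE
  have hA1S : A1 ∈ S := hS.conj_mem A hA _
  have hC1S : C1 ∈ S := hS.conj_mem C hC _
  have hCB := RootCommutatorCase_symm hBC
  obtain ⟨hiff1, hiff2⟩ := chain_iff hS hA hAB hAC hb hb1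
  have hAA : ⁅A, A⁆ = ⊥ := commutator_self_eq_bot_of (hS.commutative A hA)
  have hBB : ⁅B, B⁆ = ⊥ := commutator_self_eq_bot_of (hS.commutative B hB)
  have hCC : ⁅C, C⁆ = ⊥ := commutator_self_eq_bot_of (hS.commutative C hC)
  have hAD : ⁅A, D⁆ = ⊥ := commutator_eq_bot_of fun a ha d hd => commutator_commute_left hAB ha hd
  have hBD : ⁅B, D⁆ = ⊥ := commutator_eq_bot_of fun a ha d hd => commutator_commute_right hAB ha hd
  have hBE : ⁅B, E⁆ = ⊥ := commutator_eq_bot_of fun a ha d hd => commutator_commute_left hBC ha hd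
  have hCE : ⁅C, E⁆ = ⊥ := commutator_eq_bot_of fun a ha d hd => commutator_commute_right hBC ha hd
  have hA1le : A1 ≤ A ⊔ D := conjBy_le_sup_commutator A B hb'
  have hC1le : C1 ≤ C ⊔ E := by
    have := conjBy_le_sup_commutator C B hb'
    rwa [Subgroup.commutator_comm] at this
  have hAA1 : ⁅A, A1⁆ = ⊥ := commutator_eq_bot_mono (commutator_eq_bot_sup_right hAA hAD) le_rfl hA1le
  have hCC1 : ⁅C, C1⁆ = ⊥ := commutator_eq_bot_mono (commutator_eq_bot_sup_right hCC hCE) le_rfl hC1le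
  have hC1A1 : ⁅C1, A1⁆ = ⊥ := by
    rw [hA1, hC1, ← conjBy_commutator, Subgroup.commutator_comm, hAC, conjBy_bot]
  -- [X, Y] = 1
  have hXY : ⁅A ⊔ C1, A1 ⊔ C⁆ = ⊥ := by
    apply commutator_eq_bot_sup_left
    · exact commutator_eq_bot_sup_right hAA1 hAC
    · exact commutator_eq_bot_sup_right hC1A1 (by rw [Subgroup.commutator_comm]; exact hCC1)
  have hab_of : ∀ P Q : Subgroup G, P ∈ S → Q ∈ S → ⁅P, Q⁆ = ⊥ → ⁅P ⊔ Q, P ⊔ Q⁆ = ⊥ := by
    intro P Q hP hQ h
    apply commutator_eq_bot_sup_left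
    · exact commutator_eq_bot_sup_right (commutator_self_eq_bot_of (hS.commutative P hP)) h
    · exact commutator_eq_bot_sup_right (by rw [Subgroup.commutator_comm]; exact h)
        (commutator_self_eq_bot_of (hS.commutative Q hQ))
  have hXdich : ⁅A, C1⁆ = ⊥ ∨ RootCommutatorCase S A C1 := by
    rcases hS.pair A hA C1 hC1S with h | h | h
    · left; exact h
    · exact absurd h (chain_not_pair hS hA hC hBC hAC hb')
    · right; exact h
  have hYdich : ⁅A1, C⁆ = ⊥ ∨ RootCommutatorCase S A1 C := by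
    rcases hS.pair A1 hA1S C hC with h | h | h
    · left; exact h
    · exfalso
      have h2 := isRankOnePair_conjBy h b
      rw [hA1, conjBy_conjBy, mul_inv_cancel, conjBy_one] at h2
      exact chain_not_pair hS hA hC hBC hAC hb h2
    · right; exact h
  have hX2 : ⁅⁅A ⊔ C1, A ⊔ C1⁆, A ⊔ C1⁆ = ⊥ := by
    rcases hXdich with h | h
    · rw [hab_of A C1 hA hC1S h, Subgroup.commutator_bot_left]
    · exact class_two hS hA hC1S h
  have hY2 : ⁅⁅A1 ⊔ C, A1 ⊔ C⁆, A1 ⊔ C⁆ = ⊥ := by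
    rcases hYdich with h | h
    · rw [hab_of A1 C hA1S hC h, Subgroup.commutator_bot_left]
    · exact class_two hS hA1S hC h
  have hDle : D ≤ A ⊔ A1 := chain_D_le hAB hb hb1
  have hEle : E ≤ C ⊔ C1 := by
    have := chain_D_le hCB hb hb1
    rwa [Subgroup.commutator_comm] at this
  set W := (A ⊔ C1) ⊔ (A1 ⊔ C) with hW
  have hAW : A ≤ W := le_sup_left.trans le_sup_left
  have hC1W : C1 ≤ W := le_sup_right.trans le_sup_left
  have hA1W : A1 ≤ W := le_sup_left.trans le_sup_right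
  have hCW : C ≤ W := le_sup_right.trans le_sup_right
  have hDW : D ≤ W := hDle.trans (sup_le hAW hA1W)
  have hEW : E ≤ W := hEle.trans (sup_le hCW hC1W)
  have hWW : W ≤ Subgroup.normalizer (W : Set G) := Subgroup.le_normalizer
  have hA1B : ⁅A1, B⁆ = D := by
    have h1 : conjBy D b⁻¹ = D := conjBy_of_centralizer fun x hx => commutator_commute_right hAB hb' hx
    rw [← h1, hD, conjBy_commutator, conjBy_eq_of_mem hb']
  have hC1B : ⁅C1, B⁆ = E := by
    have h1 : conjBy E b⁻¹ = E := conjBy_of_centralizer fun x hx => commutator_commute_left hBC hb' hx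
    rw [← h1, hE, conjBy_commutator, conjBy_eq_of_mem hb', Subgroup.commutator_comm]
  have hBW : B ≤ Subgroup.normalizer (W : Set G) := by
    rw [Subgroup.le_normalizer_iff_commutator_le_left]
    have h1 : ⁅A ⊔ C1, B⁆ ≤ W := commutator_sup_left_le (hAW.trans hWW) (hC1W.trans hWW) hDW (by rw [hC1B]; exact hEW)
    have h2 : ⁅A1 ⊔ C, B⁆ ≤ W := commutator_sup_left_le (hA1W.trans hWW) (hCW.trans hWW) (by rw [hA1B]; exact hDW)
      (by rw [Subgroup.commutator_comm]; exact hEW)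
    exact commutator_sup_left_le (le_sup_left.trans hWW) (le_sup_right.trans hWW) h1 h2
  have hRW : A ⊔ B ⊔ C ≤ Subgroup.normalizer (W : Set G) :=
    sup_le (sup_le (hAW.trans hWW) hBW) (hCW.trans hWW)
  have hWR : W ≤ A ⊔ B ⊔ C := by
    have hAR : A ≤ A ⊔ B ⊔ C := le_sup_left.trans le_sup_left
    have hBR : B ≤ A ⊔ B ⊔ C := le_sup_right.trans le_sup_left
    have hCR : C ≤ A ⊔ B ⊔ C := le_sup_right
    exact sup_le (sup_le hAR (conjBy_le_of_mem hCR (hBR hb'))) (sup_le (conjBy_le_of_mem hAR (hBR hb')) hCR)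
  refine ⟨?_, hXY, ?_, ?_, ?_⟩
  · by_cases h : ⁅D, C⁆ = ⊥
    · left
      exact ⟨Subgroup.commutator_self_eq_bot_iff.mp (hab_of A C1 hA hC1S (hiff1.mpr h)),
        Subgroup.commutator_self_eq_bot_iff.mp (hab_of A1 C hA1S hC (hiff2.mpr h))⟩
    · right
      refine ⟨⟨?_, hX2⟩, ⟨?_, hY2⟩⟩
      · intro hc
        apply h
        rw [← hiff1]
        exact commutator_eq_bot_mono (commutator_self_eq_bot_of hc) le_sup_left le_sup_right
      · intro hc
        apply h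
        rw [← hiff2]
        exact commutator_eq_bot_mono (commutator_self_eq_bot_of hc) le_sup_left le_sup_right
  · intro r hr
    exact conjBy_eq_self_iff.mpr (hRW hr)
  · apply le_antisymm
    · exact sup_le hWR (le_sup_right.trans le_sup_left)
    · exact sup_le (sup_le (hAW.trans le_sup_left) le_sup_right) (hCW.trans le_sup_left)
  · -- nilpotency
    set X := A ⊔ C1 with hX
    set Y := A1 ⊔ C with hY
    have hYX : ⁅Y, X⁆ = ⊥ := by rw [Subgroup.commutator_comm]; exact hXY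
    -- W2 = [X,X] ⊔ [Y,Y] commutes with W
    have hcXX_W : ⁅⁅X, X⁆, W⁆ = ⊥ := commutator_eq_bot_sup_right hX2
      (commutator_eq_bot_mono hXY (Subgroup.commutator_le_self X) le_rfl)
    have hcYY_W : ⁅⁅Y, Y⁆, W⁆ = ⊥ := commutator_eq_bot_sup_right
      (commutator_eq_bot_mono hYX (Subgroup.commutator_le_self Y) le_rfl) hY2
    have hN : ⁅⁅X, X⁆ ⊔ ⁅Y, Y⁆, W⁆ = ⊥ := commutator_eq_bot_sup_left hcXX_W hcYY_W
    have hNn : W ≤ Subgroup.normalizer ((⁅X, X⁆ ⊔ ⁅Y, Y⁆ : Subgroup G) : Set G) :=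
      le_normalizer_of_commutator_eq_bot hN
    have hXW : X ≤ W := le_sup_left
    have hYW : Y ≤ W := le_sup_right
    have hWWle : ⁅W, W⁆ ≤ ⁅X, X⁆ ⊔ ⁅Y, Y⁆ := by
      apply commutator_sup_left_le (hXW.trans hNn) (hYW.trans hNn)
      · apply commutator_sup_right_le (hXW.trans hNn) (hYW.trans hNn) le_sup_left
        rw [hXY]; exact bot_le
      · apply commutator_sup_right_le (hXW.trans hNn) (hYW.trans hNn) _ le_sup_right
        rw [hYX]; exact bot_le
    have hWWW : ⁅⁅W, W⁆, W⁆ = ⊥ := commutator_eq_bot_mono hN hWWle le_rfl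
    -- M = [D, E]
    set M := ⁅D, E⁆ with hM
    have hMB : ⁅M, B⁆ = ⊥ := by
      rw [Subgroup.commutator_eq_bot_iff_le_centralizer, hM, Subgroup.commutator_le]
      intro d hd e he
      have hd' : d ∈ Subgroup.centralizer (B : Set G) := by
        rw [Subgroup.commutator_comm, Subgroup.commutator_eq_bot_iff_le_centralizer] at hBD
        exact hBD hd
      have he' : e ∈ Subgroup.centralizer (B : Set G) := by
        rw [Subgroup.commutator_comm, Subgroup.commutator_eq_bot_iff_le_centralizer] at hBE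
        exact hBE he
      rw [commutatorElement_def]
      exact Subgroup.mul_mem _ (Subgroup.mul_mem _ (Subgroup.mul_mem _ hd' he') (Subgroup.inv_mem _ hd'))
        (Subgroup.inv_mem _ he')
    have hMW' : M ≤ ⁅W, W⁆ := Subgroup.commutator_mono hDW hEW
    have hMW : ⁅M, W⁆ = ⊥ := commutator_eq_bot_mono hWWW hMW' le_rfl
    set R := A ⊔ B ⊔ C with hR
    have hMR : ⁅M, R⁆ = ⊥ := commutator_eq_bot_sup_right
      (commutator_eq_bot_sup_right (commutator_eq_bot_mono hMW le_rfl hAW) hMB)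
      (commutator_eq_bot_mono hMW le_rfl hCW)
    have hMn : R ≤ Subgroup.normalizer (M : Set G) := le_normalizer_of_commutator_eq_bot hMR
    have hAR : A ≤ R := le_sup_left.trans le_sup_left
    have hBR : B ≤ R := le_sup_right.trans le_sup_left
    have hCR : C ≤ R := le_sup_right
    -- K = [A,E] ⊔ [D,C] ⊔ M
    have hAEW : ⁅A, E⁆ ≤ ⁅W, W⁆ := Subgroup.commutator_mono hAW hEW
    have hDCW : ⁅D, C⁆ ≤ ⁅W, W⁆ := Subgroup.commutator_mono hDW hCW
    have hcent : ∀ k ∈ ⁅W, W⁆, ∀ w ∈ W, k * w = w * k := fun k hk w hw => commute_of_commutator_eq_bot hWWW hk hw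
    have hAEB : ⁅⁅A, E⁆, B⁆ ≤ M := by
      rw [Subgroup.commutator_def A E]
      apply commutator_closure_le
      · rintro _ ⟨a, ha, e, he, rfl⟩
        exact hMn (hWR (Subgroup.commutator_le_self W (hAEW (Subgroup.commutator_mem_commutator ha he))))
      · rintro _ ⟨a, ha, e, he, rfl⟩ β hβ
        have h1 : ⁅β, a⁆ ∈ D := by rw [hD, Subgroup.commutator_comm]; exact Subgroup.commutator_mem_commutator hβ ha
        have h2 : ⁅a, e⁆ ∈ ⁅W, W⁆ := hAEW (Subgroup.commutator_mem_commutator ha he)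
        have h3 := hcent _ h2 _ (hDW h1)
        have h4 : β * e = e * β := commute_of_commutator_eq_bot hBE hβ he
        have h5 : ⁅⁅β, a⁆, e⁆ ∈ M := Subgroup.commutator_mem_commutator h1 he
        have h6 : β * ⁅a, e⁆ * β⁻¹ = ⁅a, e⁆ * ⁅⁅β, a⁆, e⁆ := by
          have h7 : β * e * β⁻¹ = e := by rw [h4]; group
          have h8 : β * a * β⁻¹ = ⁅β, a⁆ * a := by rw [commutatorElement_def β a]; group
          rw [conjugate_commutatorElement, h7, h8, commutatorElement_mul_left_eq_conj_mul, ← h3,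
            mul_inv_cancel_right]
        have h9 : ⁅⁅a, e⁆, β⁆ = ⁅a, e⁆ * (⁅a, e⁆ * ⁅⁅β, a⁆, e⁆)⁻¹ := by
          rw [← h6, commutatorElement_def ⁅a, e⁆ β]; group
        rw [h9]
        have h10 := hcent _ h2 _ (Subgroup.commutator_le_self W (hMW' h5))
        rw [h10, mul_inv_rev, ← mul_assoc, mul_inv_cancel, one_mul]
        exact M.inv_mem h5
    have hDCB : ⁅⁅D, C⁆, B⁆ ≤ M := by
      rw [Subgroup.commutator_def D C]
      apply commutator_closure_le
      · rintro _ ⟨d, hd, c, hc, rfl⟩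
        exact hMn (hWR (Subgroup.commutator_le_self W (hDCW (Subgroup.commutator_mem_commutator hd hc))))
      · rintro _ ⟨d, hd, c, hc, rfl⟩ β hβ
        have h1 : ⁅β, c⁆ ∈ E := Subgroup.commutator_mem_commutator hβ hc
        have h2 : ⁅d, c⁆ ∈ ⁅W, W⁆ := hDCW (Subgroup.commutator_mem_commutator hd hc)
        have h3 := hcent _ h2 _ (hEW h1)
        have h4 : β * d = d * β := commute_of_commutator_eq_bot hBD hβ hd
        have h5 : ⁅d, ⁅β, c⁆⁆ ∈ M := Subgroup.commutator_mem_commutator hd h1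
        have h6 : β * ⁅d, c⁆ * β⁻¹ = ⁅d, ⁅β, c⁆⁆ * ⁅d, c⁆ := by
          have h7 : β * d * β⁻¹ = d := by rw [h4]; group
          have h8 : β * c * β⁻¹ = ⁅β, c⁆ * c := by rw [commutatorElement_def β c]; group
          rw [conjugate_commutatorElement, h7, h8, commutatorElement_mul_right_eq_mul_conj,
            mul_assoc (⁅d, ⁅β, c⁆⁆ : G), ← h3, mul_assoc (⁅d, ⁅β, c⁆⁆ : G), mul_inv_cancel_right]
        have h9 : ⁅⁅d, c⁆, β⁆ = ⁅d, c⁆ * (⁅d, ⁅β, c⁆⁆ * ⁅d, c⁆)⁻¹ := by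
          rw [← h6, commutatorElement_def ⁅d, c⁆ β]; group
        rw [h9, mul_inv_rev, ← mul_assoc, mul_inv_cancel, one_mul]
        exact M.inv_mem h5
    set K := ⁅A, E⁆ ⊔ ⁅D, C⁆ ⊔ M with hK
    have hKWW : K ≤ ⁅W, W⁆ := sup_le (sup_le hAEW hDCW) hMW'
    have hKR' : K ≤ R := hKWW.trans ((Subgroup.commutator_le_self W).trans hWR)
    have hAEn : ⁅A, E⁆ ≤ Subgroup.normalizer (M : Set G) :=
      (hAEW.trans ((Subgroup.commutator_le_self W).trans hWR)).trans hMn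
    have hDCn : ⁅D, C⁆ ≤ Subgroup.normalizer (M : Set G) :=
      (hDCW.trans ((Subgroup.commutator_le_self W).trans hWR)).trans hMn
    have hKB : ⁅K, B⁆ ≤ M :=
      commutator_sup_left_le ((sup_le hAEn hDCn)) Subgroup.le_normalizer
        (commutator_sup_left_le hAEn hDCn hAEB hDCB) (by rw [hMB]; exact bot_le)
    have hKW : ⁅K, W⁆ = ⊥ := commutator_eq_bot_mono hWWW hKWW le_rfl
    have hKR : ⁅K, R⁆ ≤ M := by
      apply commutator_sup_right_le (sup_le (hAR.trans hMn) (hBR.trans hMn)) (hCR.trans hMn)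
      · apply commutator_sup_right_le (hAR.trans hMn) (hBR.trans hMn) _ hKB
        rw [commutator_eq_bot_mono hKW le_rfl hAW]; exact bot_le
      · rw [commutator_eq_bot_mono hKW le_rfl hCW]; exact bot_le
    have hMK : M ≤ K := le_sup_right
    have hKn : R ≤ Subgroup.normalizer (K : Set G) := by
      rw [Subgroup.le_normalizer_iff_commutator_le_left]; exact hKR.trans hMK
    have hDR' : D ≤ R := hDW.trans hWR
    have hER' : E ≤ R := hEW.trans hWR
    -- [D,R] ≤ K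
    have hDR : ⁅D, R⁆ ≤ K := by
      apply commutator_sup_right_le (sup_le (hAR.trans hKn) (hBR.trans hKn)) (hCR.trans hKn)
      · apply commutator_sup_right_le (hAR.trans hKn) (hBR.trans hKn)
        · rw [Subgroup.commutator_comm, hAD]; exact bot_le
        · rw [Subgroup.commutator_comm, hBD]; exact bot_le
      · exact le_sup_right.trans le_sup_left
    have hER : ⁅E, R⁆ ≤ K := by
      apply commutator_sup_right_le (sup_le (hAR.trans hKn) (hBR.trans hKn)) (hCR.trans hKn)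
      · apply commutator_sup_right_le (hAR.trans hKn) (hBR.trans hKn)
        · rw [Subgroup.commutator_comm]; exact le_sup_left.trans le_sup_left
        · rw [Subgroup.commutator_comm, hBE]; exact bot_le
      · rw [Subgroup.commutator_comm, hCE]; exact bot_le
    set L := D ⊔ E ⊔ K with hL
    have hLR : ⁅L, R⁆ ≤ K :=
      commutator_sup_left_le (sup_le (hDR'.trans hKn) (hER'.trans hKn)) (hKR'.trans hKn)
        (commutator_sup_left_le (hDR'.trans hKn) (hER'.trans hKn) hDR hER) (hKR.trans hMK)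
    have hKL : K ≤ L := le_sup_right
    have hLn : R ≤ Subgroup.normalizer (L : Set G) := by
      rw [Subgroup.le_normalizer_iff_commutator_le_left]; exact hLR.trans hKL
    have hDL : D ≤ L := le_sup_left.trans le_sup_left
    have hEL : E ≤ L := le_sup_right.trans le_sup_left
    have hAn := hAR.trans hLn
    have hBn := hBR.trans hLn
    have hCn := hCR.trans hLn
    have hABn : A ⊔ B ≤ Subgroup.normalizer (L : Set G) := sup_le hAn hBn
    have hRR : ⁅R, R⁆ ≤ L := by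
      apply commutator_sup_left_le hABn hCn
      · apply commutator_sup_left_le hAn hBn
        · apply commutator_sup_right_le hABn hCn
          · apply commutator_sup_right_le hAn hBn
            · rw [hAA]; exact bot_le
            · exact hDL
          · rw [hAC]; exact bot_le
        · apply commutator_sup_right_le hABn hCn
          · apply commutator_sup_right_le hAn hBn
            · rw [Subgroup.commutator_comm]; exact hDL
            · rw [hBB]; exact bot_le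
          · exact hEL
      · apply commutator_sup_right_le hABn hCn
        · apply commutator_sup_right_le hAn hBn
          · rw [Subgroup.commutator_comm, hAC]; exact bot_le
          · rw [Subgroup.commutator_comm]; exact hEL
        · rw [hCC]; exact bot_le
    rw [Subgroup.isNilpotent_iff_lowerCentralSeries]
    refine ⟨4, ?_⟩
    rw [eq_bot_iff, ← hMR]
    show ⁅⁅⁅⁅R, R⁆, R⁆, R⁆, R⁆ ≤ _
    apply Subgroup.commutator_mono _ le_rfl
    refine le_trans (Subgroup.commutator_mono ?_ le_rfl) hKR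
    exact le_trans (Subgroup.commutator_mono hRR le_rfl) hLR

end Chain

end Cfsg.Agent.RankOne
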