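import Cfsg.Agent.RankOne.Line

set_option autoImplicit false

/-!
# Abstract root subgroups: components of the graph of rank one pairs
-/

namespace Cfsg.Agent.RankOne

open Cfsg
open scoped commutatorElement

variable {G : Type*} [Group G] {A B : Subgroup G} {S : Set (Subgroup G)}

theorem FAdj_symm {A B : Subgroup G} (h : FAdj S A B) : FAdj S B A := ⟨h.2.1, h.1, symm h.2.2⟩

theorem FAdj_conjBy (hS : IsRootSubgroupSet S) {A B : Subgroup G} (h : FAdj S A B) (g : G) :
    FAdj S (conjBy A g) (conjBy B g) := ⟨hS.conj_mem A h.1 g, hS.conj_mem B h.2.1 g, isRankOnePair_conjBy h.2.2 g⟩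

/-- the path relation -/
def Path (S : Set (Subgroup G)) (A B : Subgroup G) : Prop := Relation.ReflTransGen (FAdj S) A B

theorem Path.symm' {A B : Subgroup G} (h : Path S A B) : Path S B A := by
  induction h with
  | refl => exact Relation.ReflTransGen.refl
  | tail _ h2 ih => exact Relation.ReflTransGen.head (FAdj_symm h2) ih

theorem Path.trans' {A B C : Subgroup G} (h : Path S A B) (h' : Path S B C) : Path S A C :=
  Relation.ReflTransGen.trans h h'

theorem Path.conj (hS : IsRootSubgroupSet S) {A B : Subgroup G} (h : Path S A B) (g : G) :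
    Path S (conjBy A g) (conjBy B g) := by
  induction h with
  | refl => exact Relation.ReflTransGen.refl
  | tail _ h2 ih => exact Relation.ReflTransGen.tail ih (FAdj_conjBy hS h2 g)

theorem Path.of_adj {A B : Subgroup G} (h : FAdj S A B) : Path S A B := Relation.ReflTransGen.single h

theorem path_of_pair {A B : Subgroup G} (hA : A ∈ S) (hB : B ∈ S) (h : IsRankOnePair A B) : Path S A B :=
  Path.of_adj ⟨hA, hB, h⟩

theorem Path.mem {A B : Subgroup G} (hA : A ∈ S) (h : Path S A B) : B ∈ S := by
  induction h with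
  | refl => exact hA
  | tail _ h2 _ => exact h2.2.1

/-- all unipotent subgroups of a rank one pair in S are in the same component -/
theorem path_of_mem_unipotent (hS : IsRootSubgroupSet S) {A B C : Subgroup G} (hA : A ∈ S)
    (h : IsRankOnePair A B) (hC : C ∈ unipotentSubgroups A B) : Path S A C := by
  by_cases hAC : A = C
  · rw [← hAC]; exact Relation.ReflTransGen.refl
  · refine path_of_pair hA ?_ (pair_of_mem h left_mem_unipotent hC hAC)
    obtain ⟨x, -, rfl⟩ := hC
    exact hS.conj_mem A hA x

/-- if a path from A is non-trivial then A is non isolated -/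
theorem exists_partner_of_path {A A' : Subgroup G} (h : Path S A A') (hne : A' ≠ A) :
    ∃ D ∈ S, IsRankOnePair A D := by
  rcases Relation.ReflTransGen.cases_head h with h1 | ⟨D, h1, -⟩
  · exact absurd h1.symm hne
  · exact ⟨D, h1.2.1, h1.2.2⟩

/-- Key lemma for lines between components. `A`, `B` commuting, `AB` partitioned by members of `S`,
`C` opposite `A`, `B` not opposite `C`: every member of `S` in `AB` containing `ab`, `a ≠ 1`, is opposite `C`. -/
theorem opposite_of_line (hS : IsRootSubgroupSet S) {A B C E : Subgroup G} (hA : A ∈ S) (hB : B ∈ S) (hC : C ∈ S)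
    (hE : E ∈ S) (hcomm : ∀ a ∈ A, ∀ b ∈ B, a * b = b * a) (hAC : IsRankOnePair A C)
    (hBC : ¬ IsRankOnePair B C) {a b : G} (ha : a ∈ A) (ha1 : a ≠ 1) (hb : b ∈ B) (hab : a * b ∈ E) :
    IsRankOnePair E C := by
  -- conjBy C b commutes with C
  have h1 : ∀ c ∈ C, ∀ c' ∈ conjBy C b, c * c' = c' * c := by
    rcases hS.pair B hB C hC with h1 | h1 | h1
    · intro c hc c' hc'
      rw [conjBy_of_centralizer (fun c hc => commute_of_commutator_eq_bot h1 hb hc)] at hc'
      exact mulComm_of (hS.commutative C hC) hc hc'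
    · exact absurd h1 hBC
    · exact comm_case_commute hS hC (RootCommutatorCase_symm h1) hb
  -- B normalizes nothing about A: conjBy A b = A
  rcases hS.pair E hE C hC with h2 | h2 | h2
  · exfalso
    -- ab centralizes C
    have h3 : conjBy C (a * b) = C := conjBy_of_centralizer fun c hc => commute_of_commutator_eq_bot h2 hab hc
    -- conjBy C b = conjBy C a⁻¹ commutes with C
    have h4 : conjBy C b = conjBy C a⁻¹ := by
      rw [conjBy_mul, conjBy_inv_eq] at h3; exact h3
    have h5 : IsRankOnePair C (conjBy C a⁻¹) :=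
      pair_of_mem hAC (right_mem_unipotent hAC)
        (conjBy_mem_unipotent (right_mem_unipotent hAC) (mem_sup_left' (A.inv_mem ha)))
        (conjBy_ne hAC (A.inv_mem ha) (by simpa using ha1)).symm
    apply pair_not_commute h5
    rw [← h4]; exact h1
  · exact h2
  · exfalso
    -- conjBy C (ab) commutes with C and with conjBy C a
    have h3 : ∀ c ∈ C, ∀ c' ∈ conjBy C (a * b), c * c' = c' * c :=
      comm_case_commute hS hC (RootCommutatorCase_symm h2) hab
    have h4 : ∀ c ∈ conjBy C a, ∀ c' ∈ conjBy C (a * b), c * c' = c' * c := by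
      intro c hc c' hc'
      rw [conjBy_mul, mem_conjBy] at hc'
      rw [mem_conjBy] at hc
      have := h1 _ hc _ hc'
      have h5 : a⁻¹ * (c * c') * a = a⁻¹ * (c' * c) * a := by
        calc a⁻¹ * (c * c') * a = (a⁻¹ * c * a) * (a⁻¹ * c' * a) := by group
          _ = (a⁻¹ * c' * a) * (a⁻¹ * c * a) := this
          _ = a⁻¹ * (c' * c) * a := by group
      exact mul_left_cancel (mul_right_cancel h5)
    -- so centralizes C ⊔ conjBy C a = A ⊔ C
    have hCm := right_mem_unipotent hAC
    have hCam := conjBy_mem_unipotent hCm (mem_sup_left' (B := C) ha)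
    have hsup : C ⊔ conjBy C a = A ⊔ C := sup_of_mem hAC hCm hCam (conjBy_ne hAC ha ha1).symm
    have h6 : ∀ x ∈ A ⊔ C, ∀ c' ∈ conjBy C (a * b), x * c' = c' * x := by
      intro x hx c' hc'
      rw [← hsup] at hx
      refine sup_induction (p := fun x => x * c' = c' * x) (by simp) ?_ ?_ hx
      · intro c hc y hy
        rw [mul_assoc, hy, ← mul_assoc, h3 c hc c' hc', mul_assoc]
      · intro c hc y hy
        rw [mul_assoc, hy, ← mul_assoc, h4 c hc c' hc', mul_assoc]
    -- A commutes with conjBy C (a b) = conjBy C (b a) so A commutes with C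
    apply pair_not_commute hAC
    intro x hx c hc
    -- (ab) x (ab)⁻¹ = x
    have h7 : (a * b) * c * (a * b)⁻¹ ∈ conjBy C (a * b) := conj_mem_conjBy _ hc
    have h8 : (a * b) * x * (a * b)⁻¹ = x := by
      have e1 : x * (a * b) = (a * b) * x := by
        rw [← mul_assoc, mulComm_of (hS.commutative A hA) hx ha, mul_assoc, hcomm x hx b hb, mul_assoc]
      rw [← e1]; group
    have h9 := h6 x (mem_sup_left' hx) _ h7
    have h10 : (a * b) * (x * c) * (a * b)⁻¹ = (a * b) * (c * x) * (a * b)⁻¹ := by
      calc (a * b) * (x * c) * (a * b)⁻¹ = ((a * b) * x * (a * b)⁻¹) * ((a * b) * c * (a * b)⁻¹) := by group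
        _ = x * ((a * b) * c * (a * b)⁻¹) := by rw [h8]
        _ = ((a * b) * c * (a * b)⁻¹) * x := h9
        _ = ((a * b) * c * (a * b)⁻¹) * ((a * b) * x * (a * b)⁻¹) := by rw [h8]
        _ = (a * b) * (c * x) * (a * b)⁻¹ := by group
    exact mul_left_cancel (mul_right_cancel h10)

/-- no line between different components -/
theorem path_of_line (hS : IsRootSubgroupSet S) {A B C D : Subgroup G} (hA : A ∈ S) (hC : C ∈ S)
    (hAC : IsRankOnePair A C) (hD : D ∈ S) (hBD : IsRankOnePair B D)
    (hl : B ∈ linePartners S A) : Path S A B := by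
  obtain ⟨⟨hB, hne, hcomm⟩, hpart⟩ := hl
  have hcomm' : ∀ a ∈ A, ∀ b ∈ B, a * b = b * a := fun a ha b hb => commute_of_commutator_eq_bot hcomm ha hb
  by_cases hBC : IsRankOnePair B C
  · exact (path_of_pair hA hC hAC).trans' (path_of_pair hB hC hBC).symm'
  by_cases hAD : IsRankOnePair A D
  · exact (path_of_pair hA hD hAD).trans' (path_of_pair hB hD hBD).symm'
  obtain ⟨a, ha, ha1⟩ := exists_ne_one_of_mem hS hA
  obtain ⟨b, hb, hb1⟩ := exists_ne_one_of_mem hS hB
  have hab1 : a * b ≠ 1 := by
    intro hc
    have haB : a ∈ B := by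
      have : a = b⁻¹ := by rw [eq_inv_iff_mul_eq_one]; exact hc
      rw [this]; exact B.inv_mem hb
    rcases inf_eq_bot_or_eq hS hC hAC hB with h | h
    · apply ha1
      have : a ∈ A ⊓ B := ⟨ha, haB⟩
      rwa [h, Subgroup.mem_bot] at this
    · exact hne h.symm
  obtain ⟨E, ⟨hE, -⟩, habE⟩ := hpart.2.1 (a * b) (Subgroup.mul_mem _ (mem_sup_left' ha) (mem_sup_right' hb)) hab1
  have h1 : IsRankOnePair E C := opposite_of_line hS hA hB hC hE hcomm' hAC hBC ha ha1 hb habE
  have h2 : IsRankOnePair E D := by
    refine opposite_of_line hS hB hA hD hE (fun b hb a ha => (hcomm' a ha b hb).symm) hBD hAD hb hb1 ha ?_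
    rw [← hcomm' a ha b hb]; exact habE
  exact (path_of_pair hA hC hAC).trans' ((path_of_pair hE hC h1).symm'.trans'
    ((path_of_pair hE hD h2).trans' (path_of_pair hB hD hBD).symm'))

theorem not_linePartner (hS : IsRootSubgroupSet S)
    {A B : Subgroup G} (hA : A ∈ S) (hB : B ∈ S)
    (hne : componentOf (FAdj S) S A ≠ componentOf (FAdj S) S B)
    (hA2 : ∃ A' ∈ componentOf (FAdj S) S A, A' ≠ A) (hB2 : ∃ B' ∈ componentOf (FAdj S) S B, B' ≠ B) :
    B ∉ linePartners S A := by
  intro hl
  obtain ⟨A', hA', hA'ne⟩ := hA2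
  obtain ⟨B', hB', hB'ne⟩ := hB2
  obtain ⟨C, hC, hAC⟩ := exists_partner_of_path (S := S) hA'.2 hA'ne
  obtain ⟨D, hD, hBD⟩ := exists_partner_of_path (S := S) hB'.2 hB'ne
  have h1 := path_of_line hS hA hC hAC hD hBD hl
  apply hne
  ext E
  constructor
  · rintro ⟨hE, h2⟩
    exact ⟨hE, Path.trans' h1.symm' h2⟩
  · rintro ⟨hE, h2⟩
    exact ⟨hE, Path.trans' h1 h2⟩

/-- if (A,B) is in the commutator case and both are non-isolated, they are in the same component -/
theorem path_of_comm_case (hS : IsRootSubgroupSet S) {A B C D : Subgroup G} (hA : A ∈ S) (hB : B ∈ S)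
    (hC : C ∈ S) (hAC : IsRankOnePair A C) (hD : D ∈ S) (hBD : IsRankOnePair B D)
    {E : Subgroup G} (hE : E ∈ S) (hEAB : IsRankOnePair ⁅A, B⁆ E)
    (h : RootCommutatorCase S A B) : Path S A B := by
  have h1 : A ∈ linePartners S ⁅A, B⁆ := mem_linePartners hS hA hC hAC h
  have h2 : B ∈ linePartners S ⁅A, B⁆ := by
    rw [Subgroup.commutator_comm]
    exact mem_linePartners hS hB hD hBD (RootCommutatorCase_symm h)
  have h3 : Path S ⁅A, B⁆ A := path_of_line hS h.1 hE hEAB hC hAC h1
  have h4 : Path S ⁅A, B⁆ B := path_of_line hS h.1 hE hEAB hD hBD h2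
  exact h3.symm'.trans' h4

theorem exists_adj_of_path {A B : Subgroup G} (h : Path S A B) : A = B ∨ ∃ C, FAdj S A C := by
  rcases Relation.ReflTransGen.cases_head h with h1 | ⟨C, h1, -⟩
  · left; exact h1
  · right; exact ⟨C, h1⟩

theorem connected_iff (hS : IsRootSubgroupSet S) (h2 : ∃ A ∈ S, ∃ B ∈ S, A ≠ B) :
    IsConnectedFamily (FAdj S) S ↔
      (IsConjClassOfSubgroups S ∧ ∃ A ∈ S, ¬ IsIsolatedIn (FAdj S) S A) := by
  constructor
  · intro hconn
    obtain ⟨A, hA, B, hB, hAB⟩ := h2
    refine ⟨⟨⟨A, hA⟩, ?_⟩, A, hA, ?_⟩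
    · intro C hC D hD
      have hp := hconn C hC D hD
      induction hp with
      | refl => exact ⟨1, (conjBy_one C).symm⟩
      | @tail E F _ hEF ih =>
        obtain ⟨g, hg⟩ := ih hEF.1
        have hF := right_mem_unipotent hEF.2.2
        obtain ⟨x, -, hx⟩ := hF
        exact ⟨x * g, by rw [conjBy_mul, ← hg, ← hx]⟩
    · rintro ⟨-, hiso⟩
      rcases exists_adj_of_path (hconn A hA B hB) with h1 | ⟨C, h1⟩
      · exact hAB h1
      · exact (hiso C).1 h1
  · rintro ⟨⟨-, hconj⟩, A, hA, hniso⟩
    obtain ⟨A', hA', hAA'⟩ := partner_of_not_isolated hniso hA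
    -- every member is non isolated
    have hall : ∀ C ∈ S, ∃ D ∈ S, IsRankOnePair C D := by
      intro C hC
      obtain ⟨g, rfl⟩ := hconj A hA C hC
      exact ⟨conjBy A' g, hS.conj_mem A' hA' g, isRankOnePair_conjBy hAA' g⟩
    -- dichotomy: same component or commuting
    have hdich : ∀ C ∈ S, ∀ D ∈ S, Path S C D ∨ ∀ c ∈ C, ∀ d ∈ D, c * d = d * c := by
      intro C hC D hD
      rcases hS.pair C hC D hD with h1 | h1 | h1
      · right; exact fun c hc d hd => commute_of_commutator_eq_bot h1 hc hd
      · left; exact path_of_pair hC hD h1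
      · left
        obtain ⟨C', hC', hCC'⟩ := hall C hC
        obtain ⟨D', hD', hDD'⟩ := hall D hD
        obtain ⟨E, hE, hEE⟩ := hall _ h1.1
        exact path_of_comm_case hS hC hD hC' hCC' hD' hDD' hE hEE h1
    -- the set of g preserving the component of A is everything
    have hstab : ∀ D ∈ S, ∀ d ∈ D, Path S A (conjBy A d) := by
      intro D hD d hd
      rcases hdich A hA D hD with h1 | h1
      · -- path A to D, conj by d fixes D
        have h3 := Path.conj hS h1 d
        rw [conjBy_eq_of_mem hd] at h3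
        exact h1.trans' h3.symm'
      · rw [conjBy_of_centralizer (fun a ha => (h1 a ha d hd).symm)]
        exact Relation.ReflTransGen.refl
    let H : Subgroup G :=
      { carrier := {g | Path S A (conjBy A g)}
        one_mem' := by show Path S A (conjBy A 1); rw [conjBy_one]; exact Relation.ReflTransGen.refl
        mul_mem' := by
          intro x y hx hy
          show Path S A (conjBy A (x * y))
          have hx' : Path S A (conjBy A x) := hx
          have hy' : Path S A (conjBy A y) := hy
          rw [conjBy_mul]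
          exact hx'.trans' (Path.conj hS hy' x)
        inv_mem' := by
          intro x hx
          have hx' : Path S A (conjBy A x) := hx
          show Path S A (conjBy A x⁻¹)
          have := Path.conj hS hx' x⁻¹
          rw [conjBy_conjBy, inv_mul_cancel, conjBy_one] at this
          exact this.symm' }
    have hH : H = ⊤ := eq_top_of_generates hS fun D hD d hd => hstab D hD d hd
    have hAll : ∀ C ∈ S, Path S A C := by
      intro C hC
      obtain ⟨g, rfl⟩ := hconj A hA C hC
      have : g ∈ H := by rw [hH]; exact Subgroup.mem_top g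
      exact this
    intro C hC D hD
    exact (hAll C hC).symm'.trans' (hAll D hD)

end Cfsg.Agent.RankOne
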