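import Cfsg.Agent.RankOne.Root

set_option autoImplicit false

/-!
# Abstract root subgroups: the commutator case and lines
-/

namespace Cfsg.Agent.RankOne

open Cfsg
open scoped commutatorElement

variable {G : Type*} [Group G] {A B : Subgroup G} {S : Set (Subgroup G)}

/-- elements of `A ⊔ C` for commuting `A`, `C` -/
theorem mem_sup_of_commute {A C : Subgroup G} (hAC : ∀ a ∈ A, ∀ c ∈ C, a * c = c * a) {x : G} (hx : x ∈ A ⊔ C) :
    ∃ a ∈ A, ∃ c ∈ C, x = a * c := by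
  refine sup_induction (p := fun x => ∃ a ∈ A, ∃ c ∈ C, x = a * c) ⟨1, A.one_mem, 1, C.one_mem, by simp⟩ ?_ ?_ hx
  · rintro a ha y ⟨a', ha', c, hc, rfl⟩
    exact ⟨a * a', A.mul_mem ha ha', c, hc, by group⟩
  · rintro c hc y ⟨a, ha, c', hc', rfl⟩
    exact ⟨a, ha, c * c', C.mul_mem hc hc', by rw [← mul_assoc, ← hAC a ha c hc, mul_assoc]⟩

/-- In a set of abstract root subgroups, the commutator of a rank one pair is not in the set. -/
theorem commutator_not_mem (hS : IsRootSubgroupSet S) (hA : A ∈ S) (hB : B ∈ S) (hAB : IsRankOnePair A B) :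
    ⁅A, B⁆ ∉ S := by
  intro hC
  have hnA : ∀ a ∈ A, conjBy ⁅A, B⁆ a = ⁅A, B⁆ := fun a ha =>
    conjBy_eq_self_iff.mpr ((Subgroup.normalizer_commutator_ge_left A B) ha)
  obtain ⟨b, hb, hb1⟩ := exists_ne_one_right hAB
  have hAb := conjBy_mem_unipotent (A := A) (B := B) left_mem_unipotent (mem_sup_right' hb)
  have hne : conjBy A b ≠ A := conjBy_ne (symm hAB) hb hb1
  -- conjBy A b ≤ A ⊔ C
  have hle : conjBy A b ≤ A ⊔ ⁅A, B⁆ := by
    intro x hx
    rw [mem_conjBy] at hx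
    have h1 : x = ⁅b, b⁻¹ * x * b⁆ * (b⁻¹ * x * b) := by rw [commutatorElement_def]; group
    rw [h1]
    refine Subgroup.mul_mem _ (mem_sup_right' ?_) (mem_sup_left' hx)
    rw [Subgroup.commutator_comm]
    exact Subgroup.commutator_mem_commutator hb hx
  -- there is x in conjBy A b, x ≠ 1
  have hpair : IsRankOnePair (conjBy A b) A := pair_of_mem hAB hAb left_mem_unipotent hne
  obtain ⟨x, hx, hx1⟩ := exists_ne_one_left hpair
  have hpair2 : IsRankOnePair A (conjBy A x) :=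
    pair_of_mem hpair (right_mem_unipotent hpair)
      (conjBy_mem_unipotent (right_mem_unipotent hpair) (mem_sup_left' hx)) (conjBy_ne hpair hx hx1).symm
  apply pair_not_commute hpair2
  -- [A, C] is central in A ⊔ C
  have hcentral : ∀ y ∈ A ⊔ ⁅A, B⁆, ∀ a ∈ A, ⁅y, a⁆ ∈ ⁅A, ⁅A, B⁆⁆ ∧ (∀ a' ∈ A, ⁅y, a⁆ * a' = a' * ⁅y, a⁆) := by
    have hc' : ∀ c ∈ ⁅A, ⁅A, B⁆⁆, ∀ x ∈ A ⊔ ⁅A, B⁆, c * x = x * c := by
      rcases hS.pair A hA _ hC with h1 | h1 | h1
      · intro c hc x _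
        rw [h1, Subgroup.mem_bot] at hc
        rw [hc]; simp
      · exfalso
        obtain ⟨a, ha, ha1⟩ := exists_ne_one_left hAB
        exact ha1 (eq_one_of_conj h1 ha (hnA a ha))
      · exact h1.2.1
    intro y hy a ha
    have hmem : ⁅y, a⁆ ∈ ⁅A, ⁅A, B⁆⁆ := by
      refine sup_induction (p := fun y => ⁅y, a⁆ ∈ ⁅A, ⁅A, B⁆⁆) (by simp) ?_ ?_ hy
      · intro a' ha' z hz
        rw [commutatorElement_mul_left_eq_conj_mul]
        have h2 : ⁅a', a⁆ = 1 := by
          rw [commutatorElement_eq_one_iff_mul_comm]; exact mulComm_of (hS.commutative A hA) ha' ha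
        rw [h2, mul_one, hc' _ hz a' (mem_sup_left' ha') |>.symm]
        simpa using hz
      · intro c hc z hz
        rw [commutatorElement_mul_left_eq_conj_mul]
        have h2 : ⁅c, a⁆ ∈ ⁅A, ⁅A, B⁆⁆ := by
          rw [Subgroup.commutator_comm]; exact Subgroup.commutator_mem_commutator hc ha
        refine Subgroup.mul_mem _ ?_ h2
        rw [hc' _ hz c (mem_sup_right' hc) |>.symm]
        simpa using hz
    exact ⟨hmem, fun a' ha' => hc' _ hmem a' (mem_sup_left' ha')⟩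
  intro a ha a' ha'
  rw [mem_conjBy] at ha'
  obtain ⟨-, h3⟩ := hcentral x (hle hx) _ ha'
  have h4 : a' = ⁅x, x⁻¹ * a' * x⁆ * (x⁻¹ * a' * x) := by rw [commutatorElement_def]; group
  have h5 := h3 a ha
  have h6 := mulComm_of (hS.commutative A hA) ha ha'
  generalize ⁅x, x⁻¹ * a' * x⁆ = k at h4 h5
  generalize x⁻¹ * a' * x = w at h4 h6
  subst h4
  rw [← mul_assoc, ← h5, mul_assoc, h6, mul_assoc]

theorem comm_case_of_mem (hS : IsRootSubgroupSet S) (hA : A ∈ S) (hB : B ∈ S) (hC : ⁅A, B⁆ ∈ S) :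
    RootCommutatorCase S A B := by
  rcases hS.pair A hA B hB with h1 | h1 | h1
  · exact absurd h1 (hS.ne_bot _ hC)
  · exact absurd hC (commutator_not_mem hS hA hB h1)
  · exact h1

theorem ne_commutator (hS : IsRootSubgroupSet S) (h : RootCommutatorCase S A B) : A ≠ ⁅A, B⁆ := by
  intro he
  apply hS.ne_bot _ h.1
  apply commutator_eq_bot_of
  intro a ha b hb
  rw [he] at ha
  exact h.2.1 a ha b (mem_sup_right' hb)

theorem commutator_commute_left (h : RootCommutatorCase S A B) {a c : G} (ha : a ∈ A) (hc : c ∈ ⁅A, B⁆) :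
    a * c = c * a := (h.2.1 c hc a (mem_sup_left' ha)).symm

theorem commutator_commute_right (h : RootCommutatorCase S A B) {b c : G} (hb : b ∈ B) (hc : c ∈ ⁅A, B⁆) :
    b * c = c * b := (h.2.1 c hc b (mem_sup_right' hb)).symm

/-- the homomorphism b ↦ a⁻¹ b⁻¹ a b -/
theorem comm_hom_mul (hS : IsRootSubgroupSet S) (h : RootCommutatorCase S A B) {a b b' : G} (ha : a ∈ A) (hb : b ∈ B)
    (hb' : b' ∈ B) : a⁻¹ * (b * b')⁻¹ * a * (b * b') = (a⁻¹ * b⁻¹ * a * b) * (a⁻¹ * b'⁻¹ * a * b') := by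
  have h1 : a⁻¹ * b⁻¹ * a * b ∈ ⁅A, B⁆ := by
    have := Subgroup.commutator_mem_commutator (A.inv_mem ha) (B.inv_mem hb)
    rwa [commutatorElement_def, inv_inv, inv_inv] at this
  have h2 := commutator_commute_right h hb' h1
  have h3 : a⁻¹ * b'⁻¹ * a * b' ∈ ⁅A, B⁆ := by
    have := Subgroup.commutator_mem_commutator (A.inv_mem ha) (B.inv_mem hb')
    rwa [commutatorElement_def, inv_inv, inv_inv] at this
  have h4 := mulComm_of (hS.commutative _ h.1) h1 h3
  rw [h4]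
  calc a⁻¹ * (b * b')⁻¹ * a * (b * b') = (a⁻¹ * b'⁻¹ * a) * ((a⁻¹ * b⁻¹ * a * b) * b') := by group
    _ = (a⁻¹ * b'⁻¹ * a) * (b' * (a⁻¹ * b⁻¹ * a * b)) := by rw [h2]
    _ = (a⁻¹ * b'⁻¹ * a * b') * (a⁻¹ * b⁻¹ * a * b) := by group

theorem comm_mem (A B : Subgroup G) {a b : G} (ha : a ∈ A) (hb : b ∈ B) : a⁻¹ * b⁻¹ * a * b ∈ ⁅A, B⁆ := by
  have := Subgroup.commutator_mem_commutator (A.inv_mem ha) (B.inv_mem hb)
  rwa [commutatorElement_def, inv_inv, inv_inv] at this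

/-- surjectivity -/
theorem comm_surj (hS : IsRootSubgroupSet S) (h : RootCommutatorCase S A B) {a : G} (ha : a ∈ A) (ha1 : a ≠ 1)
    {c : G} (hc : c ∈ ⁅A, B⁆) : ∃ b ∈ B, a⁻¹ * b⁻¹ * a * b = c := by
  have h1 := h.2.2.1 a⁻¹ (A.inv_mem ha) (by simpa using ha1)
  rw [← h1] at hc
  let φ : B →* G :=
    { toFun := fun b => a⁻¹ * (b : G)⁻¹ * a * b
      map_one' := by simp
      map_mul' := fun b b' => comm_hom_mul hS h ha b.2 b'.2 }
  have h2 : Subgroup.closure ((fun b : G => a⁻¹ * b * a⁻¹⁻¹ * b⁻¹) '' (B : Set G)) ≤ φ.range := by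
    rw [Subgroup.closure_le]
    rintro _ ⟨b, hb, rfl⟩
    refine ⟨⟨b⁻¹, B.inv_mem hb⟩, ?_⟩
    show a⁻¹ * (b⁻¹)⁻¹ * a * b⁻¹ = a⁻¹ * b * a⁻¹⁻¹ * b⁻¹
    rw [inv_inv, inv_inv]
  obtain ⟨b, hb⟩ := h2 hc
  exact ⟨b, b.2, hb⟩

/-- injectivity, in the form: no nonidentity elements commute -/
theorem comm_inj (hS : IsRootSubgroupSet S) (hA : A ∈ S) {D : Subgroup G} (hD : D ∈ S) (hAD : IsRankOnePair A D)
    (h : RootCommutatorCase S A B) {a b : G} (ha : a ∈ A) (ha1 : a ≠ 1) (hb : b ∈ B)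
    (hab : a * b = b * a) : b = 1 := by
  by_contra hb1
  have hmem : a ∈ conjBy A b := by
    rw [mem_conjBy, mul_assoc, hab]; simpa using ha
  rcases inf_eq_bot_or_eq hS hD hAD (hS.conj_mem A hA b) with h1 | h1
  · apply ha1
    have : a ∈ A ⊓ conjBy A b := ⟨ha, hmem⟩
    rwa [h1, Subgroup.mem_bot] at this
  · -- then [A, b] ≤ A ∩ C = ⊥
    rcases inf_eq_bot_or_eq hS hD hAD h.1 with h2 | h2
    · apply hS.ne_bot _ h.1
      rw [← h.2.2.2 b hb hb1, eq_bot_iff, Subgroup.closure_le]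
      rintro _ ⟨a', ha', rfl⟩
      rw [SetLike.mem_coe, ← h2]
      refine ⟨?_, ?_⟩
      · show a' * b * a'⁻¹ * b⁻¹ ∈ A
        have h3 : b * a'⁻¹ * b⁻¹ ∈ A := by
          rw [h1]; exact conj_mem_conjBy b (A.inv_mem ha')
        have : a' * b * a'⁻¹ * b⁻¹ = a' * (b * a'⁻¹ * b⁻¹) := by group
        rw [this]; exact A.mul_mem ha' h3
      · have := Subgroup.commutator_mem_commutator ha' hb
        rwa [commutatorElement_def] at this
    · exact ne_commutator hS h h2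

theorem comm_inj_eq (hS : IsRootSubgroupSet S) (hA : A ∈ S) {D : Subgroup G} (hD : D ∈ S) (hAD : IsRankOnePair A D)
    (h : RootCommutatorCase S A B) {a b b' : G} (ha : a ∈ A) (ha1 : a ≠ 1) (hb : b ∈ B) (hb' : b' ∈ B)
    (he : a⁻¹ * b⁻¹ * a * b = a⁻¹ * b'⁻¹ * a * b') : b = b' := by
  have h1 : b * b'⁻¹ = 1 := by
    apply comm_inj hS hA hD hAD h ha ha1 (B.mul_mem hb (B.inv_mem hb'))
    have h2 : b⁻¹ * a * b = b'⁻¹ * a * b' := by
      have : a⁻¹ * (b⁻¹ * a * b) = a⁻¹ * (b'⁻¹ * a * b') := by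
        calc a⁻¹ * (b⁻¹ * a * b) = a⁻¹ * b⁻¹ * a * b := by group
          _ = a⁻¹ * b'⁻¹ * a * b' := he
          _ = a⁻¹ * (b'⁻¹ * a * b') := by group
      exact mul_left_cancel this
    calc a * (b * b'⁻¹) = b * (b⁻¹ * a * b) * b'⁻¹ := by group
      _ = b * (b'⁻¹ * a * b') * b'⁻¹ := by rw [h2]
      _ = (b * b'⁻¹) * a := by group
  exact mul_inv_eq_one.mp h1

theorem comm_equiv (hS : IsRootSubgroupSet S) (hA : A ∈ S) {D : Subgroup G} (hD : D ∈ S) (hAD : IsRankOnePair A D)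
    (h : RootCommutatorCase S A B) {a : G} (ha : a ∈ A) (ha1 : a ≠ 1) :
    ∃ φ : ↥B ≃* ↥⁅A, B⁆, ∀ b : ↥B, (φ b : G) = a⁻¹ * (b : G)⁻¹ * a * b := by
  let f : B →* ↥⁅A, B⁆ :=
    { toFun := fun b => ⟨a⁻¹ * (b : G)⁻¹ * a * b, comm_mem A B ha b.2⟩
      map_one' := by ext; simp
      map_mul' := fun b b' => by
        ext; exact comm_hom_mul hS h ha b.2 b'.2 }
  have hf : Function.Bijective f := by
    constructor
    · intro b b' he
      have he' : a⁻¹ * (b : G)⁻¹ * a * b = a⁻¹ * (b' : G)⁻¹ * a * b' := congrArg Subtype.val he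
      exact Subtype.ext (comm_inj_eq hS hA hD hAD h ha ha1 b.2 b'.2 he')
    · rintro ⟨c, hc⟩
      obtain ⟨b, hb, hbc⟩ := comm_surj hS h ha ha1 hc
      exact ⟨⟨b, hb⟩, Subtype.ext hbc⟩
  exact ⟨MulEquiv.ofBijective f hf, fun b => rfl⟩

theorem conj_mem_of_mul (hS : IsRootSubgroupSet S) (h : RootCommutatorCase S A B) {a c : G} (ha : a ∈ A) (ha1 : a ≠ 1)
    (hc : c ∈ ⁅A, B⁆) : ∃ b ∈ B, a * c ∈ conjBy A b := by
  obtain ⟨b, hb, hbc⟩ := comm_surj hS h ha ha1 hc
  refine ⟨b⁻¹, B.inv_mem hb, ?_⟩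
  rw [mem_conjBy, inv_inv, ← hbc]
  have : b * (a * (a⁻¹ * b⁻¹ * a * b)) * b⁻¹ = a := by group
  rw [this]; exact ha

theorem conjBy_le_sup_commutator (A B : Subgroup G) {b : G} (hb : b ∈ B) : conjBy A b ≤ A ⊔ ⁅A, B⁆ := by
  intro x hx
  rw [mem_conjBy] at hx
  have h1 : x = ⁅b, b⁻¹ * x * b⁆ * (b⁻¹ * x * b) := by rw [commutatorElement_def]; group
  rw [h1]
  refine Subgroup.mul_mem _ (mem_sup_right' ?_) (mem_sup_left' hx)
  rw [Subgroup.commutator_comm]
  exact Subgroup.commutator_mem_commutator hb hx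

theorem exists_ne_one_of_mem (hS : IsRootSubgroupSet S) (hA : A ∈ S) : ∃ a ∈ A, a ≠ 1 := by
  by_contra hc
  push Not at hc
  exact hS.ne_bot A hA ((Subgroup.eq_bot_iff_forall _).mpr hc)

/-- a member of S inside C = [A,B] equals C -/
theorem eq_commutator_of_le (hS : IsRootSubgroupSet S) (hA : A ∈ S) {D : Subgroup G} (hD : D ∈ S)
    (hAD : IsRankOnePair A D) (h : RootCommutatorCase S A B) {E : Subgroup G} (hE : E ∈ S)
    (hEC : E ≤ ⁅A, B⁆) : E = ⁅A, B⁆ := by
  obtain ⟨a, ha, ha1⟩ := exists_ne_one_of_mem hS hA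
  -- no nonidentity element of C centralizes D
  have claim : ∀ c ∈ ⁅A, B⁆, c ≠ 1 → ¬ ∀ d ∈ D, c * d = d * c := by
    intro c hc hc1 hcd
    have hz : c ∈ Subgroup.centralizer ((A ⊔ D : Subgroup G) : Set G) := by
      rw [Subgroup.mem_centralizer_iff]
      intro x hx
      have hx' : x ∈ A ⊔ D := hx
      refine sup_induction (p := fun x => x * c = c * x) (by simp) ?_ ?_ hx'
      · intro a' ha' y hy
        rw [mul_assoc, hy, ← mul_assoc, commutator_commute_left h ha' hc, mul_assoc]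
      · intro d hd y hy
        rw [mul_assoc, hy, ← mul_assoc, ← hcd d hd, mul_assoc]
    apply central_translate hS hD hAD hz hc1 ha ha1
    obtain ⟨b, hb, hab⟩ := conj_mem_of_mul hS h ha ha1 hc
    rw [commutator_commute_left h ha hc] at hab
    refine ⟨?_, conjBy A b, hS.conj_mem A hA b, hab⟩
    intro hca
    -- c * a = 1 → a ∈ C ∩ A
    have haC : a ∈ ⁅A, B⁆ := by
      have : a = c⁻¹ := by rw [eq_inv_iff_mul_eq_one, commutator_commute_left h ha hc]; exact hca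
      rw [this]; exact Subgroup.inv_mem _ hc
    rcases inf_eq_bot_or_eq hS hD hAD h.1 with h2 | h2
    · apply ha1
      have : a ∈ A ⊓ ⁅A, B⁆ := ⟨ha, haC⟩
      rwa [h2, Subgroup.mem_bot] at this
    · exact ne_commutator hS h h2
  obtain ⟨e, he, he1⟩ := exists_ne_one_of_mem hS hE
  rcases hS.pair _ h.1 D hD with h1 | h1 | h1
  · exact absurd (fun d hd => commute_of_commutator_eq_bot h1 (hEC he) hd) (claim e (hEC he) he1)
  · rcases inf_eq_bot_or_eq hS hD h1 hE with h2 | h2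
    · exfalso
      apply he1
      have : e ∈ ⁅A, B⁆ ⊓ E := ⟨hEC he, he⟩
      rwa [h2, Subgroup.mem_bot] at this
    · exact h2.symm
  · -- commutator case for (C, D)
    have h1' := RootCommutatorCase_symm h1
    rcases hS.pair E hE D hD with h2 | h2 | h2
    · exact absurd (fun d hd => commute_of_commutator_eq_bot h2 he hd) (claim e (hEC he) he1)
    · exfalso
      -- conjBy D e commutes with D
      have h3 : IsRankOnePair D (conjBy D e) :=
        pair_of_mem h2 (right_mem_unipotent h2) (conjBy_mem_unipotent (right_mem_unipotent h2) (mem_sup_left' he))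
          (conjBy_ne h2 he he1).symm
      exact pair_not_commute h3 (comm_case_commute hS hD h1' (hEC he))
    · apply le_antisymm hEC
      intro c hc
      obtain ⟨d, hd, hd1⟩ := exists_ne_one_of_mem hS hD
      have h2' := RootCommutatorCase_symm h2
      -- [D, E] = [D, C]
      have h3 : ⁅D, E⁆ = ⁅D, ⁅A, B⁆⁆ := by
        apply le_antisymm (Subgroup.commutator_mono le_rfl hEC)
        rw [← h1'.2.2.2 e (hEC he) he1, Subgroup.closure_le]
        rintro _ ⟨d', hd', rfl⟩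
        have := Subgroup.commutator_mem_commutator hd' he
        rwa [commutatorElement_def] at this
      have h4 : d⁻¹ * c⁻¹ * d * c ∈ ⁅D, E⁆ := by
        rw [h3]; exact comm_mem D _ hd hc
      obtain ⟨e', he', h5⟩ := comm_surj hS h2' hd hd1 h4
      have h6 := comm_inj_eq hS hD hA (symm hAD) h1' hd hd1 (hEC he') hc h5
      rw [← h6]; exact he'

theorem members_eq (hS : IsRootSubgroupSet S) (hA : A ∈ S) {D : Subgroup G} (hD : D ∈ S)
    (hAD : IsRankOnePair A D) (h : RootCommutatorCase S A B) :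
    membersIn S (A ⊔ ⁅A, B⁆) = (fun b : G => conjBy A b) '' (B : Set G) ∪ {⁅A, B⁆} := by
  ext E
  constructor
  · rintro ⟨hE, hle⟩
    by_cases hEC : E ≤ ⁅A, B⁆
    · right; exact eq_commutator_of_le hS hA hD hAD h hE hEC
    · left
      rw [SetLike.not_le_iff_exists] at hEC
      obtain ⟨e, he, heC⟩ := hEC
      obtain ⟨a, ha, c, hc, rfl⟩ := mem_sup_of_commute (fun a ha c hc => commutator_commute_left h ha hc) (hle he)
      have ha1 : a ≠ 1 := by
        rintro rfl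
        apply heC
        rwa [one_mul]
      obtain ⟨b, hb, hab⟩ := conj_mem_of_mul hS h ha ha1 hc
      refine ⟨b, hb, ?_⟩
      rcases inf_eq_bot_or_eq hS (hS.conj_mem D hD b) (isRankOnePair_conjBy hAD b) hE with h2 | h2
      · exfalso
        apply heC
        have : a * c ∈ conjBy A b ⊓ E := ⟨hab, he⟩
        rw [h2, Subgroup.mem_bot] at this
        rw [this]; exact Subgroup.one_mem _
      · exact h2
  · rintro (⟨b, hb, rfl⟩ | hE)
    · exact ⟨hS.conj_mem A hA b, conjBy_le_sup_commutator A B hb⟩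
    · rw [Set.mem_singleton_iff] at hE
      rw [hE]; exact ⟨h.1, le_sup_right⟩

theorem members_partition (hS : IsRootSubgroupSet S) (hA : A ∈ S) {D : Subgroup G} (hD : D ∈ S)
    (hAD : IsRankOnePair A D) (h : RootCommutatorCase S A B) :
    IsSubgroupPartition (A ⊔ ⁅A, B⁆) (membersIn S (A ⊔ ⁅A, B⁆)) := by
  refine ⟨fun E hE => hE.2, ?_, ?_⟩
  · intro x hx hx1
    by_cases hxC : x ∈ ⁅A, B⁆
    · exact ⟨_, ⟨h.1, le_sup_right⟩, hxC⟩
    · obtain ⟨a, ha, c, hc, rfl⟩ := mem_sup_of_commute (fun a ha c hc => commutator_commute_left h ha hc) hx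
      have ha1 : a ≠ 1 := by
        rintro rfl
        apply hxC
        rwa [one_mul]
      obtain ⟨b, hb, hab⟩ := conj_mem_of_mul hS h ha ha1 hc
      exact ⟨_, ⟨hS.conj_mem A hA b, conjBy_le_sup_commutator A B hb⟩, hab⟩
  · intro E hE F hF hEF
    have hE' := hE
    have hF' := hF
    rw [members_eq hS hA hD hAD h] at hE' hF'
    rcases hE' with ⟨b, hb, rfl⟩ | hE'
    · rcases inf_eq_bot_or_eq hS (hS.conj_mem D hD b) (isRankOnePair_conjBy hAD b) hF.1 with h2 | h2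
      · exact h2
      · exact absurd h2 hEF
    · rcases hF' with ⟨b, hb, rfl⟩ | hF'
      · rcases inf_eq_bot_or_eq hS (hS.conj_mem D hD b) (isRankOnePair_conjBy hAD b) hE.1 with h2 | h2
        · rw [inf_comm]; exact h2
        · exact absurd h2 (Ne.symm hEF)
      · rw [Set.mem_singleton_iff] at hE' hF'
        exact absurd (hE'.trans hF'.symm) hEF

theorem mem_linePartners (hS : IsRootSubgroupSet S) (hA : A ∈ S) {D : Subgroup G} (hD : D ∈ S)
    (hAD : IsRankOnePair A D) (h : RootCommutatorCase S A B) : A ∈ linePartners S ⁅A, B⁆ := by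
  refine ⟨⟨hA, ne_commutator hS h, commutator_eq_bot_of fun c hc a ha => (commutator_commute_left h ha hc).symm⟩, ?_⟩
  rw [sup_comm]
  exact members_partition hS hA hD hAD h

end Cfsg.Agent.RankOne
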