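import Cfsg.Agent.RankOne.Normal
import Cfsg.Prelude.Def_Transfer

set_option autoImplicit false

/-!
# Rank one groups acting quadratically on an abelian group
-/

namespace Cfsg.Agent.RankOne

open Cfsg
open scoped commutatorElement

variable {X : Type*} [Group X] {N : Type*} [AddCommGroup N] [DistribMulAction X N]

/-- [N, A] -/
def commSub (N : Type*) [AddCommGroup N] [DistribMulAction X N] (A : Subgroup X) : AddSubgroup N :=
  AddSubgroup.closure {m | ∃ a ∈ A, ∃ n : N, m = a • n - n}

/-- fixed points of X -/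
def fixedSub (X : Type*) [Group X] (N : Type*) [AddCommGroup N] [DistribMulAction X N] : AddSubgroup N where
  carrier := {n | ∀ x : X, x • n = n}
  zero_mem' := fun x => smul_zero x
  add_mem' := by
    intro a b ha hb x
    rw [smul_add, ha x, hb x]
  neg_mem' := by
    intro a ha x
    rw [smul_neg, ha x]

theorem mem_fixedSub {n : N} : n ∈ fixedSub X N ↔ ∀ x : X, x • n = n := Iff.rfl

theorem sub_mem_commSub {A : Subgroup X} {a : X} (ha : a ∈ A) (n : N) : a • n - n ∈ commSub N A :=
  AddSubgroup.subset_closure ⟨a, ha, n, rfl⟩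

theorem smul_mem_commSub {A : Subgroup X} (x : X) {m : N} (hm : m ∈ commSub N A) :
    x • m ∈ commSub N (conjBy A x) := by
  induction hm using AddSubgroup.closure_induction with
  | mem m hm =>
    obtain ⟨a, ha, n, rfl⟩ := hm
    have h1 := sub_mem_commSub (conj_mem_conjBy x ha) (x • n)
    rwa [mul_smul, inv_smul_smul, mul_smul, ← smul_sub] at h1
  | zero => rw [smul_zero]; exact AddSubgroup.zero_mem _
  | add a b _ _ iha ihb => rw [smul_add]; exact AddSubgroup.add_mem _ iha ihb
  | neg a _ iha => rw [smul_neg]; exact AddSubgroup.neg_mem _ iha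

/-- quadratic action -/
def Quad (N : Type*) [AddCommGroup N] [DistribMulAction X N] (A : Subgroup X) : Prop :=
  ∀ a ∈ A, ∀ a' ∈ A, ∀ n : N, a' • (a • n - n) = a • n - n

theorem Quad.conj {A : Subgroup X} (h : Quad N A) (x : X) : Quad N (conjBy A x) := by
  intro a ha a' ha' n
  rw [mem_conjBy] at ha ha'
  have h1 := h _ ha _ ha' (x⁻¹ • n)
  have e1 : (x⁻¹ * a * x) • x⁻¹ • n - x⁻¹ • n = x⁻¹ • (a • n - n) := by
    rw [mul_smul, smul_inv_smul, mul_smul, ← smul_sub]
  rw [e1, mul_smul, smul_inv_smul, mul_smul] at h1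
  exact smul_left_cancel _ h1

theorem Quad.fix {A : Subgroup X} (h : Quad N A) {a : X} (ha : a ∈ A) {m : N} (hm : m ∈ commSub N A) : a • m = m := by
  induction hm using AddSubgroup.closure_induction with
  | mem m hm =>
    obtain ⟨a', ha', n, rfl⟩ := hm
    exact h a' ha' a ha n
  | zero => exact smul_zero a
  | add a b _ _ iha ihb => rw [smul_add, iha, ihb]
  | neg a _ iha => rw [smul_neg, iha]

section Pair

variable {A B : Subgroup X} (htop : A ⊔ B = ⊤) (hp : IsRankOnePair A B)

include htop in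
theorem fixed_of (n : N) (hA : ∀ a ∈ A, a • n = n) (hB : ∀ b ∈ B, b • n = n) : n ∈ fixedSub X N := by
  intro x
  have hx : x ∈ A ⊔ B := by rw [htop]; exact Subgroup.mem_top x
  refine sup_induction (p := fun x => x • n = n) (one_smul _ _) ?_ ?_ hx
  · intro a ha y hy; rw [mul_smul, hy, hA a ha]
  · intro b hb y hy; rw [mul_smul, hy, hB b hb]

include htop in
theorem sub_mem_sup (x : X) (n : N) : x • n - n ∈ commSub N A ⊔ commSub N B := by
  have hx : x ∈ A ⊔ B := by rw [htop]; exact Subgroup.mem_top x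
  refine sup_induction (p := fun x => ∀ n : N, x • n - n ∈ commSub N A ⊔ commSub N B) ?_ ?_ ?_ hx n
  · intro n; rw [one_smul, sub_self]; exact AddSubgroup.zero_mem _
  · intro a ha y hy n
    have : (a * y) • n - n = (a • (y • n) - y • n) + (y • n - n) := by rw [mul_smul]; abel
    rw [this]
    exact AddSubgroup.add_mem _ ((le_sup_left : commSub N A ≤ _) (sub_mem_commSub ha _)) (hy n)
  · intro a ha y hy n
    have : (a * y) • n - n = (a • (y • n) - y • n) + (y • n - n) := by rw [mul_smul]; abel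
    rw [this]
    exact AddSubgroup.add_mem _ ((le_sup_right : commSub N B ≤ _) (sub_mem_commSub ha _)) (hy n)

include hp in
theorem quad_right (hq : Quad N A) : Quad N B := by
  obtain ⟨x, -, hx⟩ := right_mem_unipotent hp
  rw [hx]; exact hq.conj x

theorem inv_smul_eq {A : Subgroup X} (hq : Quad N A) {a : X} (ha : a ∈ A) (n : N) :
    a⁻¹ • n = n - (a • n - n) := by
  have h1 := hq a ha a⁻¹ (A.inv_mem ha) n
  rw [smul_sub, inv_smul_smul] at h1
  rw [← h1]; abel

include htop in
/-- the key: on [N,A], (a-1)(b-1) is the identity modulo fixed points, when `A^b = B^a` -/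
theorem key (hqA : Quad N A) (hqB : Quad N B) {a b : X} (ha : a ∈ A) (hb : b ∈ B)
    (hab : conjBy A b⁻¹ = conjBy B a⁻¹) {v : N} (hv : v ∈ commSub N A) :
    (a • (b • v - v) - (b • v - v)) - v ∈ fixedSub X N := by
  have hw : a • b⁻¹ • v ∈ commSub N B := by
    have h1 := smul_mem_commSub b⁻¹ hv
    rw [hab] at h1
    have h2 := smul_mem_commSub a h1
    rwa [conjBy_conjBy, mul_inv_cancel, conjBy_one] at h2
  set w : N := a • b⁻¹ • v with hwdef
  have e1 : b⁻¹ • v = a⁻¹ • w := by rw [hwdef, inv_smul_smul]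
  rw [inv_smul_eq hqB hb, inv_smul_eq hqA ha] at e1
  -- v - β v = w - α w
  set βv : N := b • v - v with hβ
  set αw : N := a • w - w with hα
  have hβm : βv ∈ commSub N B := sub_mem_commSub hb v
  have hαm : αw ∈ commSub N A := sub_mem_commSub ha w
  have e2 : v + αw = w + βv := by
    have : v + αw = (v - βv) + αw + βv := by abel
    rw [this, e1]; abel
  have hz : v + αw ∈ fixedSub X N := by
    apply fixed_of htop
    · intro a' ha'
      exact hqA.fix ha' (AddSubgroup.add_mem _ hv hαm)
    · intro b' hb'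
      rw [e2]
      exact hqB.fix hb' (AddSubgroup.add_mem _ hw hβm)
  have hw2 : w = (v + αw) - βv := by rw [e2]; abel
  have hα2 : αw = -(a • βv - βv) := by
    have h3 : a • (v + αw) = v + αw := hz a
    have h4 : αw = a • ((v + αw) - βv) - ((v + αw) - βv) := by
      rw [← hw2]
    rw [h4, smul_sub, h3]; abel
  have h5 : a • βv - βv - v = -(v + αw) := by
    rw [hα2]; abel
  rw [h5]
  exact AddSubgroup.neg_mem _ hz

include htop hp in
/-- an element of A acting trivially on [N,A]+[N,B] modulo fixed points is 1 -/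
theorem eq_one_of_trivial (hqA : Quad N A) (hqB : Quad N B)
    (hX : ∃ x y : X, ∃ n : N, y • (x • n - n) ≠ x • n - n) {a : X} (ha : a ∈ A)
    (htriv : ∀ w ∈ commSub N B, a • w - w ∈ fixedSub X N) : a = 1 := by
  by_contra ha1
  obtain ⟨b, hb, hb1, hab⟩ := hp.cond_left a ha ha1
  -- NB ≤ Z
  have hNB : ∀ w ∈ commSub N B, w ∈ fixedSub X N := by
    intro w hw
    have h1 := key (by rwa [sup_comm]) hqB hqA hb ha hab.symm hw
    have h2 : b • (a • w - w) = a • w - w := (htriv w hw) b
    rw [h2, sub_self, zero_sub] at h1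
    simpa using AddSubgroup.neg_mem _ h1
  have hNA : ∀ v ∈ commSub N A, v ∈ fixedSub X N := by
    intro v hv
    have h1 := key htop hqA hqB ha hb hab hv
    have h2 : a • (b • v - v) = b • v - v := (hNB _ (sub_mem_commSub hb v)) a
    rw [h2, sub_self, zero_sub] at h1
    simpa using AddSubgroup.neg_mem _ h1
  obtain ⟨x, y, n, hne⟩ := hX
  apply hne
  have h3 : x • n - n ∈ fixedSub X N := by
    have h4 : commSub N A ⊔ commSub N B ≤ fixedSub X N := sup_le hNA hNB
    exact h4 (sub_mem_sup htop x n)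
  exact h3 y

include htop hp in
theorem special_of_quad (hqA : Quad N A) (hX : ∃ x y : X, ∃ n : N, y • (x • n - n) ≠ x • n - n) :
    IsSpecialRankOnePair A B := by
  have hqB := quad_right hp hqA
  refine ⟨hp, ?_⟩
  intro a ha ha1 b hb hb1 hab
  -- two elements
  have hinvA : ∀ n : N, a⁻¹ • n = n - (a • n - n) := inv_smul_eq hqA ha
  have hinvB : ∀ n : N, b⁻¹ • n = n - (b • n - n) := inv_smul_eq hqB hb
  have hagA : ∀ v ∈ commSub N A, (b⁻¹ * a * b) • v = (a⁻¹ * b⁻¹ * a) • v := by
    intro v hv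
    have hz := key htop hqA hqB ha hb hab hv
    have hav : a • v = v := hqA.fix ha hv
    set βv : N := b • v - v with hβ
    have hbv : b • v = v + βv := by rw [hβ]; abel
    have hbβ : b • βv = βv := hqB.fix hb (sub_mem_commSub hb v)
    set αβ : N := a • βv - βv with hαβ
    have haβ : a • βv = βv + αβ := by rw [hαβ]; abel
    set z : N := αβ - v with hz'
    have hαβ2 : αβ = v + z := by rw [hz']; abel
    have hzb : b • z = z := hz b
    have hza : a • z = z := hz a
    have haab : a • αβ = αβ := hqA.fix ha (sub_mem_commSub ha _)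
    have l1 : (b⁻¹ * a * b) • v = b⁻¹ • (v + (βv + αβ)) := by
      rw [mul_smul, mul_smul, hbv, smul_add, hav, haβ]
    have l2 : (a⁻¹ * b⁻¹ * a) • v = a⁻¹ • (v - βv) := by
      rw [mul_smul, mul_smul, hav, hinvB, ← hβ]
    rw [l1, l2, hinvB, hinvA]
    simp only [smul_add, smul_sub, hbv, hbβ, hav, haβ, hαβ2, hzb]
    abel
  have hagB : ∀ w ∈ commSub N B, (b⁻¹ * a * b) • w = (a⁻¹ * b⁻¹ * a) • w := by
    intro w hw
    have hz := key (by rwa [sup_comm] : B ⊔ A = ⊤) hqB hqA hb ha hab.symm hw
    have hbw : b • w = w := hqB.fix hb hw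
    set αw : N := a • w - w with hα
    have haw : a • w = w + αw := by rw [hα]; abel
    have haα : a • αw = αw := hqA.fix ha (sub_mem_commSub ha w)
    set βα : N := b • αw - αw with hβα
    have hbα : b • αw = αw + βα := by rw [hβα]; abel
    set z : N := βα - w with hz'
    have hβα2 : βα = w + z := by rw [hz']; abel
    have hzb : b • z = z := hz b
    have hza : a • z = z := hz a
    have l1 : (b⁻¹ * a * b) • w = b⁻¹ • (w + αw) := by
      rw [mul_smul, mul_smul, hbw, haw]
    have l2 : b⁻¹ • (w + αw) = αw - z := by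
      rw [hinvB, smul_add, hbw, hbα, hβα2]; abel
    have l3 : (a⁻¹ * b⁻¹ * a) • w = a⁻¹ • (αw - z) := by
      rw [mul_smul, mul_smul, haw, l2]
    rw [l1, l2, l3, hinvA, smul_sub, haα, hza]
    abel
  -- c = c1 c2⁻¹ acts trivially on V
  have hc1 : b⁻¹ * a * b ∈ conjBy A b⁻¹ := by
    have := conj_mem_conjBy b⁻¹ ha
    rwa [inv_inv] at this
  have hc2 : a⁻¹ * b⁻¹ * a ∈ conjBy A b⁻¹ := by
    rw [hab]
    have := conj_mem_conjBy a⁻¹ (B.inv_mem hb)
    rwa [inv_inv] at this
  set c1 := b⁻¹ * a * b with hc1d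
  set c2 := a⁻¹ * b⁻¹ * a with hc2d
  have hV : ∀ v ∈ commSub N A ⊔ commSub N B, c1 • v = c2 • v := by
    intro v hv
    rw [AddSubgroup.mem_sup] at hv
    obtain ⟨y, hy, w, hw, rfl⟩ := hv
    rw [smul_add, smul_add, hagA y hy, hagB w hw]
  have hinvV : ∀ (x : X), ∀ v ∈ commSub N A ⊔ commSub N B, x • v ∈ commSub N A ⊔ commSub N B := by
    intro x v hv
    have : x • v = (x • v - v) + v := by abel
    rw [this]
    exact AddSubgroup.add_mem _ (sub_mem_sup htop x v) hv
  have hc : b * (c1 * c2⁻¹) * b⁻¹ ∈ A := by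
    have h1 : c1 * c2⁻¹ ∈ conjBy A b⁻¹ := Subgroup.mul_mem _ hc1 (Subgroup.inv_mem _ hc2)
    rw [mem_conjBy, inv_inv] at h1
    exact h1
  have h2 : b * (c1 * c2⁻¹) * b⁻¹ = 1 := by
    apply eq_one_of_trivial htop hp hqA hqB hX hc
    intro w hw
    have hw' : w ∈ commSub N A ⊔ commSub N B := (le_sup_right : commSub N B ≤ _) hw
    have h3 : (b * (c1 * c2⁻¹) * b⁻¹) • w = w := by
      rw [mul_smul, mul_smul, mul_smul, hV _ (hinvV _ _ (hinvV _ _ hw')), smul_inv_smul, smul_inv_smul]
    rw [h3, sub_self]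
    exact AddSubgroup.zero_mem _
  have h4 : c1 * c2⁻¹ = 1 := by
    have : c1 * c2⁻¹ = b⁻¹ * (b * (c1 * c2⁻¹) * b⁻¹) * b := by group
    rw [this, h2]; group
  exact mul_inv_eq_one.mp h4

theorem pow_smul_quad {A : Subgroup X} (hq : Quad N A) {a : X} (ha : a ∈ A) (k : ℕ) (n : N) :
    a ^ k • n = n + k • (a • n - n) := by
  induction k with
  | zero => simp
  | succ k ih =>
    have h1 := hq a ha (a ^ k) (A.pow_mem ha k) n
    have : a ^ (k + 1) • n = a ^ k • (a • n - n) + a ^ k • n := by
      rw [← smul_add, sub_add_cancel, ← mul_smul, pow_succ]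
    rw [this, h1, ih, succ_nsmul]; abel

include htop hp in
theorem torsion_dichotomy (hf : ∀ x : X, (∀ v : N, x • v = v) → x = 1) (hqA : Quad N A) :
    (∀ a ∈ A, a ≠ 1 → ¬ IsOfFinOrder a) ∨ ∃ p : ℕ, p.Prime ∧ IsElementaryAbelian p A := by
  have hqB := quad_right hp hqA
  have hX : ∃ x y : X, ∃ n : N, y • (x • n - n) ≠ x • n - n := by
    by_contra hc
    push Not at hc
    apply not_isMulCommutative (X := X) ⟨htop, hp⟩
    intro x y
    have h1 : (x * y) * (y * x)⁻¹ = 1 := by
      apply hf
      intro v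
      have h2 : ∀ n : N, (x * y) • n = (y * x) • n := by
        intro n
        have e1 := hc x y n
        have e2 := hc y x n
        rw [smul_sub, sub_eq_sub_iff_add_eq_add] at e1 e2
        rw [mul_smul, mul_smul]
        -- e1 : y•x•n + n = x•n + y•n ; e2 : x•y•n + n = y•n + x•n
        have : x • y • n + n = y • x • n + n := by rw [e2, e1]; abel
        exact add_right_cancel this
      rw [mul_smul, h2, smul_inv_smul]
    exact mul_inv_eq_one.mp h1
  by_cases htf : ∀ a ∈ A, a ≠ 1 → ¬ IsOfFinOrder a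
  · left; exact htf
  right
  push Not at htf
  obtain ⟨a₀, ha₀, ha₀1, hfin⟩ := htf
  have hord : orderOf a₀ ≠ 1 := by rwa [Ne, orderOf_eq_one_iff]
  obtain ⟨p, hprime, hdvd⟩ := Nat.exists_prime_and_dvd hord
  refine ⟨p, hprime, ?_, ?_⟩
  · apply isMulCommutative_of
    intro a ha a' ha'
    have h1 : (a * a') * (a' * a)⁻¹ = 1 := by
      apply hf
      intro v
      have h2 : ∀ n : N, (a * a') • n = (a' * a) • n := by
        intro n
        have e1 := hqA a ha a' ha' n
        have e2 := hqA a' ha' a ha n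
        rw [smul_sub, sub_eq_sub_iff_add_eq_add] at e1 e2
        rw [mul_smul, mul_smul]
        have : a • a' • n + n = a' • a • n + n := by rw [e2, e1]; abel
        exact add_right_cancel this
      rw [mul_smul, h2, smul_inv_smul]
    exact mul_inv_eq_one.mp h1
  · -- element of order p
    obtain ⟨m, hm⟩ := hdvd
    set a := a₀ ^ m with hadef
    have ha : a ∈ A := A.pow_mem ha₀ m
    have hpos : 0 < orderOf a₀ := hfin.orderOf_pos
    have hmpos : 0 < m := by
      rcases Nat.eq_zero_or_pos m with h | h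
      · rw [h, mul_zero] at hm; omega
      · exact h
    have ha1 : a ≠ 1 := by
      intro h
      have h1 := orderOf_dvd_of_pow_eq_one (hadef ▸ h : a₀ ^ m = 1)
      have h2 := Nat.le_of_dvd hmpos h1
      rw [hm] at h2
      have h3 : 1 * m < p * m := Nat.mul_lt_mul_of_pos_right hprime.one_lt hmpos
      omega
    have hap : a ^ p = 1 := by
      rw [hadef, ← pow_mul, mul_comm, ← hm, pow_orderOf_eq_one]
    obtain ⟨b, hb, hb1, hab⟩ := hp.cond_left a ha ha1
    have hkill : ∀ n : N, p • (a • n - n) = 0 := by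
      intro n
      have h1 := pow_smul_quad hqA ha p n
      rw [hap, one_smul] at h1
      exact (add_eq_left.mp h1.symm)
    have hpNA : ∀ v ∈ commSub N A, p • v ∈ fixedSub X N := by
      intro v hv
      have hz := key htop hqA hqB ha hb hab hv
      have h1 : p • v = -(p • ((a • (b • v - v) - (b • v - v)) - v)) := by
        rw [smul_sub p _ v, hkill]; abel
      rw [h1]
      exact AddSubgroup.neg_mem _ (AddSubgroup.nsmul_mem _ hz p)
    intro a' ha'
    apply eq_one_of_trivial htop hp hqA hqB hX (A.pow_mem ha' p)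
    intro w _
    rw [pow_smul_quad hqA ha' p w]
    have : w + p • (a' • w - w) - w = p • (a' • w - w) := by abel
    rw [this]
    exact hpNA _ (sub_mem_commSub ha' w)

end Pair

end Cfsg.Agent.RankOne
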