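import Cfsg.Agent.RankOne.Normal
import Cfsg.Prelude.Def_Transfer

set_option autoImplicit false

/-!
# Special rank one groups
-/

namespace Cfsg.Agent.RankOne

open Cfsg
open scoped commutatorElement

variable {G : Type*} [Group G] {A B : Subgroup G}

/-- a ∈ A, b ∈ B nonidentity with A^b = B^a -/
structure Opp (A B : Subgroup G) (a b : G) : Prop where
  ha : a ∈ A
  ha1 : a ≠ 1
  hb : b ∈ B
  hb1 : b ≠ 1
  rel : conjBy A b⁻¹ = conjBy B a⁻¹

theorem Opp.swap {a b : G} (h : Opp A B a b) : Opp B A b a := ⟨h.hb, h.hb1, h.ha, h.ha1, h.rel.symm⟩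

theorem Opp.unique_right (hp : IsRankOnePair A B) {a b b' : G} (h : Opp A B a b) (h' : Opp A B a b') : b = b' :=
  (existsUnique_right hp h.ha h.ha1).unique ⟨h.hb, h.hb1, h.rel⟩ ⟨h'.hb, h'.hb1, h'.rel⟩

theorem Opp.unique_left (hp : IsRankOnePair A B) {a a' b : G} (h : Opp A B a b) (h' : Opp A B a' b) : a = a' :=
  (existsUnique_left hp h.hb h.hb1).unique ⟨h.ha, h.ha1, h.rel⟩ ⟨h'.ha, h'.ha1, h'.rel⟩

theorem exists_opp (hp : IsRankOnePair A B) {a : G} (ha : a ∈ A) (ha1 : a ≠ 1) : ∃ b, Opp A B a b := by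
  obtain ⟨b, hb, hb1, h⟩ := hp.cond_left a ha ha1
  exact ⟨b, ha, ha1, hb, hb1, h⟩

theorem exists_opp' (hp : IsRankOnePair A B) {b : G} (hb : b ∈ B) (hb1 : b ≠ 1) : ∃ a, Opp A B a b := by
  obtain ⟨a, h⟩ := exists_opp (symm hp) hb hb1
  exact ⟨a, h.swap⟩

theorem special_symm (hs : IsSpecialRankOnePair A B) : IsSpecialRankOnePair B A := by
  refine ⟨symm hs.1, ?_⟩
  intro b hb hb1 a ha ha1 hab
  have h := hs.2 a ha ha1 b hb hb1 hab.symm
  have h2 : (b⁻¹ * a * b)⁻¹ = (a⁻¹ * b⁻¹ * a)⁻¹ := by rw [h]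
  have h3 : (b⁻¹ * a * b)⁻¹ = b⁻¹ * a⁻¹ * b := by group
  have h4 : (a⁻¹ * b⁻¹ * a)⁻¹ = a⁻¹ * b * a := by group
  rw [h3, h4] at h2
  exact h2.symm

section Special

variable (hs : IsSpecialRankOnePair A B) {a b : G} (h : Opp A B a b)

include hs h in
theorem braid : a * b⁻¹ * a = b⁻¹ * a * b⁻¹ := by
  have h1 := hs.2 a h.ha h.ha1 b h.hb h.hb1 h.rel
  calc a * b⁻¹ * a = a * (b⁻¹ * a * b) * b⁻¹ := by group
    _ = a * (a⁻¹ * b⁻¹ * a) * b⁻¹ := by rw [h1]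
    _ = b⁻¹ * a * b⁻¹ := by group

/-- the element n(a) = a b⁻¹ a -/
def nn (a b : G) : G := a * b⁻¹ * a

include hs h in
theorem nn_conj_a : (nn a b)⁻¹ * a * nn a b = b⁻¹ := by
  have h1 := braid hs h
  unfold nn
  calc (a * b⁻¹ * a)⁻¹ * a * (a * b⁻¹ * a) = (a * b⁻¹ * a)⁻¹ * a * (b⁻¹ * a * b⁻¹) := by rw [← h1]
    _ = b⁻¹ := by group

include hs h in
theorem nn_conj_b : (nn a b)⁻¹ * b⁻¹ * nn a b = a := by
  have h1 := braid hs h
  unfold nn
  calc (a * b⁻¹ * a)⁻¹ * b⁻¹ * (a * b⁻¹ * a) = (b⁻¹ * a * b⁻¹)⁻¹ * b⁻¹ * (a * b⁻¹ * a) := by rw [← h1]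
    _ = a := by group

include hs h in
theorem nn_eq : nn a b = b⁻¹ * a * b⁻¹ := braid hs h

include h in
theorem conjBy_B_nn : conjBy B (nn a b)⁻¹ = A := by
  have e : (nn a b)⁻¹ = a⁻¹ * b * a⁻¹ := by unfold nn; group
  rw [e, conjBy_mul, ← h.rel, conjBy_conjBy, mul_assoc, mul_inv_cancel, mul_one]
  exact conjBy_eq_of_mem (A.inv_mem h.ha)

include h in
theorem nn_mem_sup : nn a b ∈ A ⊔ B :=
  Subgroup.mul_mem _ (Subgroup.mul_mem _ (mem_sup_left' h.ha) (Subgroup.inv_mem _ (mem_sup_right' h.hb)))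
    (mem_sup_left' h.ha)

include hs h in
theorem conjBy_A_nn : conjBy A (nn a b)⁻¹ = B := by
  by_contra hne
  have h1 : b⁻¹ ∈ conjBy A (nn a b)⁻¹ := by
    rw [mem_conjBy, inv_inv]
    have := nn_conj_a hs h
    rw [← this]
    have e : nn a b * ((nn a b)⁻¹ * a * nn a b) * (nn a b)⁻¹ = a := by group
    rw [e]; exact h.ha
  have h2 := eq_one_of_conj_mem hs.1 (conjBy_mem_unipotent left_mem_unipotent (Subgroup.inv_mem _ (nn_mem_sup h)))
    (right_mem_unipotent hs.1) hne h1 (conjBy_eq_of_mem (B.inv_mem h.hb))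
  exact h.hb1 (by simpa using h2)

include hs h in
theorem opp_inv : Opp A B a⁻¹ b⁻¹ := by
  refine ⟨A.inv_mem h.ha, by simpa using h.ha1, B.inv_mem h.hb, by simpa using h.hb1, ?_⟩
  have h1 := conjBy_A_nn hs h
  have e : (nn a b)⁻¹ = b * (a⁻¹ * b) := by
    rw [show nn a b = b⁻¹ * a * b⁻¹ from braid hs h]; group
  rw [e, conjBy_mul, conjBy_inv_eq, conjBy_eq_of_mem (B.inv_mem h.hb), conjBy_mul, conjBy_inv_eq] at h1
  rw [inv_inv]
  exact h1

include hs h in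
theorem nn_conj_b' : nn a b * a * (nn a b)⁻¹ = b⁻¹ := by
  have := nn_conj_b hs h
  calc nn a b * a * (nn a b)⁻¹ = nn a b * ((nn a b)⁻¹ * b⁻¹ * nn a b) * (nn a b)⁻¹ := by rw [this]
    _ = b⁻¹ := by group

include hs h in
/-- transport of opposite pairs by n -/
theorem opp_conj_nn {x y : G} (hxy : Opp A B x y) :
    Opp A B ((nn a b)⁻¹ * y * nn a b) ((nn a b)⁻¹ * x * nn a b) := by
  have hA := conjBy_A_nn hs h
  have hB := conjBy_B_nn h
  have conj_ne : ∀ z : G, z ≠ 1 → (nn a b)⁻¹ * z * nn a b ≠ 1 := by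
    intro z hz hc
    apply hz
    have : z = nn a b * ((nn a b)⁻¹ * z * nn a b) * (nn a b)⁻¹ := by group
    rw [this, hc]; group
  refine ⟨?_, conj_ne _ hxy.hb1, ?_, conj_ne _ hxy.ha1, ?_⟩
  · rw [← hB]; simpa using conj_mem_conjBy (nn a b)⁻¹ hxy.hb
  · rw [← hA]; simpa using conj_mem_conjBy (nn a b)⁻¹ hxy.ha
  · have hA' : conjBy A (nn a b) = B := by rw [conjBy_inv_eq, hB]
    have hB' : conjBy B (nn a b) = A := by rw [conjBy_inv_eq, hA]
    have e1 : ((nn a b)⁻¹ * x * nn a b)⁻¹ = (nn a b)⁻¹ * x⁻¹ * nn a b := by group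
    have e2 : ((nn a b)⁻¹ * y * nn a b)⁻¹ = (nn a b)⁻¹ * y⁻¹ * nn a b := by group
    rw [e1, e2, conjBy_mul, conjBy_mul _ _ (nn a b), hA', hB', conjBy_mul, conjBy_mul, hxy.rel]

include hs h in
/-- identity (I) -/
theorem key_identity {x c d z : G} (hx : Opp A B x c) (hxa : Opp A B (x * a) d) (hz : Opp A B z (d * b⁻¹)) :
    (nn a b)⁻¹ * c * nn a b = z * a := by
  have hA := conjBy_A_nn hs h
  have hB := conjBy_B_nn h
  have hB' : conjBy B (nn a b) = A := by rw [conjBy_inv_eq, hA]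
  have hmem : (nn a b)⁻¹ * c * nn a b ∈ A := by
    rw [← hB]; simpa using conj_mem_conjBy (nn a b)⁻¹ hx.hb
  have e1 : conjBy B ((nn a b)⁻¹ * c * nn a b)⁻¹ = conjBy B (z * a)⁻¹ := by
    calc conjBy B ((nn a b)⁻¹ * c * nn a b)⁻¹ = conjBy B ((nn a b)⁻¹ * c⁻¹ * nn a b) := by
          congr 1; group
      _ = conjBy (conjBy A c⁻¹) (nn a b)⁻¹ := by rw [conjBy_mul, hB', conjBy_mul]
      _ = conjBy B ((nn a b)⁻¹ * x⁻¹) := by rw [hx.rel, conjBy_conjBy]
      _ = conjBy B (a⁻¹ * b * (x * a)⁻¹) := by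
          congr 1; unfold nn; group
      _ = conjBy (conjBy A d⁻¹) (a⁻¹ * b) := by rw [conjBy_mul, hxa.rel]
      _ = conjBy (conjBy A (d * b⁻¹)⁻¹) a⁻¹ := by
          rw [conjBy_conjBy, conjBy_conjBy]; congr 1; group
      _ = conjBy B (z * a)⁻¹ := by rw [hz.rel, conjBy_conjBy]; congr 1; group
  exact inv_injective (eq_of_conjBy_eq hs.1 (A.inv_mem hmem) (A.inv_mem (A.mul_mem hz.ha h.ha)) e1)

include hs h in
theorem pow_eq_one_iff_opp (k : ℕ) : a ^ k = 1 ↔ b ^ k = 1 := by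
  have h1 := nn_conj_b' hs h
  have h2 : ∀ k : ℕ, nn a b * a ^ k * (nn a b)⁻¹ = (b⁻¹) ^ k := by
    intro k
    rw [← h1, conj_pow]
  constructor
  · intro hk
    have := h2 k
    rw [hk] at this
    have h3 : (b⁻¹) ^ k = 1 := by rw [← this]; group
    simpa using h3
  · intro hk
    have := h2 k
    rw [inv_pow, hk, inv_one] at this
    have h3 : a ^ k = (nn a b)⁻¹ * (nn a b * a ^ k * (nn a b)⁻¹) * nn a b := by group
    rw [h3, this]; group

end Special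

theorem opp_pow (k : ℕ) : ∀ {A B : Subgroup G}, IsSpecialRankOnePair A B → IsMulCommutative A →
    IsMulCommutative B → ∀ {a b c : G}, Opp A B a b → Opp A B (a ^ (k + 1)) c → c ^ (k + 1) = b := by
  induction k with
  | zero =>
    intro A B hs _ _ a b c h1 h2
    rw [zero_add, pow_one] at h2 ⊢
    exact h2.unique_right hs.1 h1
  | succ k ih =>
    intro A B hs hA hB a b c' h1 h2
    by_cases hak : a ^ (k + 1) = 1
    · have h3 : a ^ (k + 1 + 1) = a := by rw [pow_succ, hak, one_mul]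
      rw [h3] at h2
      have h4 := h2.unique_right hs.1 h1
      subst h4
      rw [pow_succ, (pow_eq_one_iff_opp hs h1 (k + 1)).mp hak, one_mul]
    · obtain ⟨e, he⟩ := exists_opp hs.1 (A.pow_mem h1.ha (k + 1)) hak
      have hek : e ^ (k + 1) = b := ih hs hA hB h1 he
      set n := nn a b with hn
      -- x = a^{-(k+2)}
      have hx : Opp A B (a ^ (k + 1 + 1))⁻¹ c'⁻¹ := opp_inv hs h2
      have hxa : Opp A B ((a ^ (k + 1 + 1))⁻¹ * a) e⁻¹ := by
        have : (a ^ (k + 1 + 1))⁻¹ * a = (a ^ (k + 1))⁻¹ := by rw [pow_succ' a (k + 1)]; group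
        rw [this]; exact opp_inv hs he
      have heb : e⁻¹ * b⁻¹ = (e ^ (k + 1 + 1))⁻¹ := by rw [← hek, pow_succ e (k + 1)]; group
      have hne : (e ^ (k + 1 + 1))⁻¹ ≠ 1 := by
        intro hc
        rw [inv_eq_one] at hc
        have hb' : b ^ (k + 1 + 1) = 1 := by
          rw [← hek, ← pow_mul, mul_comm, pow_mul, hc, one_pow]
        exact h2.ha1 ((pow_eq_one_iff_opp hs h1 _).mpr hb')
      obtain ⟨z, hz⟩ := exists_opp' hs.1 (B.inv_mem (B.pow_mem he.hb (k + 1 + 1))) hne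
      have hI := key_identity hs h1 hx hxa (by rw [heb]; exact hz)
      -- P(k) for (B, A)
      have hconj : n⁻¹ * a ^ (k + 1 + 1) * n = (b ^ (k + 1 + 1))⁻¹ := by
        have h5 := nn_conj_a hs h1
        have h6 : (n⁻¹ * a * n⁻¹⁻¹) ^ (k + 1 + 1) = (b⁻¹) ^ (k + 1 + 1) := by
          rw [inv_inv]; rw [h5]
        rw [conj_pow, inv_inv] at h6
        rw [h6, inv_pow]
      have hu : ((e ^ (k + 1 + 1))⁻¹) ^ (k + 1) = (b ^ (k + 1 + 1))⁻¹ := by
        rw [inv_pow, ← pow_mul, mul_comm, pow_mul, hek]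
      have ht := opp_conj_nn hs h1 h2
      rw [← hn, hconj, ← hu] at ht
      have hv := ih (special_symm hs) hB hA hz.swap ht.swap
      -- v = n⁻¹ c' n, v^(k+1) = z
      have hI' : (n⁻¹ * c' * n)⁻¹ = z * a := by
        rw [← hI, ← hn]; group
      have hfin : (n⁻¹ * c' * n) ^ (k + 1 + 1) = a⁻¹ := by
        have e3 : z * a = (n⁻¹ * c' * n)⁻¹ := hI'.symm
        have e4 : a = z⁻¹ * (n⁻¹ * c' * n)⁻¹ := by rw [← e3]; group
        rw [e4, ← hv, pow_succ' _ (k + 1), mul_inv_rev, inv_inv, inv_inv]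
      have h7 : n⁻¹ * c' ^ (k + 1 + 1) * n = a⁻¹ := by
        have : (n⁻¹ * c' * n⁻¹⁻¹) ^ (k + 1 + 1) = a⁻¹ := by rw [inv_inv]; exact hfin
        rw [conj_pow, inv_inv] at this
        exact this
      have h8 := nn_conj_b' hs h1
      calc c' ^ (k + 1 + 1) = n * (n⁻¹ * c' ^ (k + 1 + 1) * n) * n⁻¹ := by group
        _ = n * a⁻¹ * n⁻¹ := by rw [h7]
        _ = (n * a * n⁻¹)⁻¹ := by group
        _ = b := by rw [h8, inv_inv]

theorem special_dichotomy {A B : Subgroup G} (hs : IsSpecialRankOnePair A B) (hA : IsMulCommutative A)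
    (hB : IsMulCommutative B) :
    (∃ p : ℕ, p.Prime ∧ Cfsg.IsElementaryAbelian p A) ∨
    ((∀ a ∈ A, a ≠ 1 → ¬ IsOfFinOrder a) ∧ ∀ a ∈ A, ∀ n : ℕ, 0 < n → ∃ c ∈ A, c ^ n = a) := by
  by_cases hfin : ∃ a ∈ A, a ≠ 1 ∧ IsOfFinOrder a
  · left
    obtain ⟨a, ha, ha1, hfo⟩ := hfin
    have ho1 : orderOf a ≠ 1 := fun hc => ha1 (orderOf_eq_one_iff.mp hc)
    have hp := Nat.minFac_prime ho1
    obtain ⟨m, hm⟩ := Nat.minFac_dvd (orderOf a)
    set p := (orderOf a).minFac with hpdef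
    have hm0 : m ≠ 0 := by
      rintro rfl
      rw [mul_zero] at hm
      exact hfo.orderOf_pos.ne' hm
    have ht1 : a ^ m ≠ 1 := by
      intro hc
      have h1 := orderOf_dvd_of_pow_eq_one hc
      have h2 := Nat.le_of_dvd (Nat.pos_of_ne_zero hm0) h1
      rw [hm] at h2
      have := hp.two_le
      have h3 : 0 < m := Nat.pos_of_ne_zero hm0
      nlinarith
    have htp : (a ^ m) ^ p = 1 := by
      rw [← pow_mul, mul_comm, ← hm, pow_orderOf_eq_one]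
    refine ⟨p, hp, hA, ?_⟩
    intro s hsA
    by_contra hsp
    obtain ⟨k, hk⟩ : ∃ k, p = k + 1 := ⟨p - 1, by have := hp.pos; omega⟩
    have hs1 : s ≠ 1 := fun hc => hsp (by rw [hc, one_pow])
    obtain ⟨b, hb⟩ := exists_opp hs.1 hsA hs1
    obtain ⟨c, hc⟩ := exists_opp hs.1 (A.pow_mem hsA p) hsp
    have hcomm : Commute s (a ^ m) := mulComm_of hA hsA (A.pow_mem ha m)
    have hst : (s * a ^ m) ^ p = s ^ p := by
      rw [hcomm.mul_pow, htp, mul_one]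
    have hst1 : s * a ^ m ≠ 1 := by
      intro hc; rw [hc, one_pow] at hst; exact hsp hst.symm
    obtain ⟨b', hb'⟩ := exists_opp hs.1 (A.mul_mem hsA (A.pow_mem ha m)) hst1
    have e1 : c ^ p = b := by
      rw [hk] at hc ⊢
      exact opp_pow k hs hA hB hb hc
    have e2 : c ^ p = b' := by
      rw [← hst] at hc
      rw [hk] at hc ⊢
      exact opp_pow k hs hA hB hb' hc
    rw [e1] at e2
    subst e2
    have := hb.unique_left hs.1 hb'
    apply ht1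
    have h5 : s * a ^ m = s * 1 := by rw [← this, mul_one]
    exact mul_left_cancel h5
  · right
    push Not at hfin
    refine ⟨hfin, ?_⟩
    intro a ha n hn
    by_cases ha1 : a = 1
    · exact ⟨1, A.one_mem, by rw [ha1, one_pow]⟩
    obtain ⟨b, hb⟩ := exists_opp hs.1 ha ha1
    have hbn : b ^ n ≠ 1 := by
      intro hc
      apply hfin a ha ha1
      rw [isOfFinOrder_iff_pow_eq_one]
      exact ⟨n, hn, (pow_eq_one_iff_opp hs hb n).mpr hc⟩
    obtain ⟨c, hc⟩ := exists_opp' hs.1 (B.pow_mem hb.hb n) hbn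
    obtain ⟨k, rfl⟩ : ∃ k, n = k + 1 := ⟨n - 1, by omega⟩
    exact ⟨c, hc.ha, opp_pow k (special_symm hs) hB hA hb.swap hc.swap⟩

end Cfsg.Agent.RankOne
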