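import Cfsg.Agent.RankOne.SteinHom
import Cfsg.Agent.RankOne.Special
import Mathlib.LinearAlgebra.Matrix.ProjectiveSpecialLinearGroup

set_option autoImplicit false

/-!
# Minimal subgroups of special rank one groups: SL₂(p), PSL₂(p)
-/

namespace Cfsg.Agent.RankOne

open Cfsg

section Pow

variable {G : Type*} [Group G] {p : ℕ} [Fact p.Prime]

/-- powers with exponents in ZMod p -/
def zp (g : G) (t : ZMod p) : G := g ^ t.val

theorem zp_one (g : G) : zp g (1 : ZMod p) = g := by
  unfold zp; rw [ZMod.val_one, pow_one]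

theorem zp_zero (g : G) : zp g (0 : ZMod p) = 1 := by
  unfold zp; rw [ZMod.val_zero, pow_zero]

theorem zp_add {g : G} (hg : g ^ p = 1) (s t : ZMod p) : zp g (s + t) = zp g s * zp g t := by
  unfold zp
  rw [ZMod.val_add, ← pow_eq_pow_mod _ hg, pow_add]

theorem zp_mul {g : G} (hg : g ^ p = 1) (s t : ZMod p) : zp g (s * t) = zp g s ^ t.val := by
  unfold zp
  rw [ZMod.val_mul, ← pow_eq_pow_mod _ hg, pow_mul]

theorem zp_neg {g : G} (hg : g ^ p = 1) (t : ZMod p) : zp g (-t) = (zp g t)⁻¹ := by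
  rw [eq_inv_iff_mul_eq_one, ← zp_add hg, neg_add_cancel, zp_zero]

theorem zp_pow_p {g : G} (hg : g ^ p = 1) (t : ZMod p) : (zp g t) ^ p = 1 := by
  unfold zp; rw [← pow_mul, mul_comm, pow_mul, hg, one_pow]

theorem zp_eq_one {g : G} (hg : g ^ p = 1) (hg1 : g ≠ 1) {t : ZMod p} : zp g t = 1 ↔ t = 0 := by
  constructor
  · intro h
    by_contra ht
    apply hg1
    have := zp_mul hg t t⁻¹
    rw [mul_inv_cancel₀ ht, zp_one, h, one_pow] at this
    exact this
  · rintro rfl; exact zp_zero g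

theorem zp_mem {A : Subgroup G} {g : G} (hg : g ∈ A) (t : ZMod p) : zp g t ∈ A := A.pow_mem hg _

end Pow

variable {G : Type*} [Group G] {A B : Subgroup G} {p : ℕ} [Fact p.Prime]

theorem pow_p_right (hs : IsSpecialRankOnePair A B) (hA : ∀ a ∈ A, a ^ p = 1) {c : G} (hc : c ∈ B) : c ^ p = 1 := by
  by_cases h1 : c = 1
  · rw [h1, one_pow]
  obtain ⟨a, ha⟩ := exists_opp' hs.1 hc h1
  exact (pow_eq_one_iff_opp hs ha p).mp (hA a ha.ha)

theorem opp_zp (hs : IsSpecialRankOnePair A B) (hab : HasAbelianUnipotents A B) (hA : ∀ a ∈ A, a ^ p = 1)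
    {a b : G} (h : Opp A B a b) {t : ZMod p} (ht : t ≠ 0) : Opp A B (zp a t) (zp b t⁻¹) := by
  have hap := hA a h.ha
  have h1 : zp a t ≠ 1 := fun hc => ht ((zp_eq_one hap h.ha1).mp hc)
  obtain ⟨c, hc⟩ := exists_opp hs.1 (zp_mem h.ha t) h1
  have hcp : c ^ p = 1 := pow_p_right hs hA hc.hb
  have h2 : c ^ t.val = b := by
    have hv : t.val ≠ 0 := fun hv => ht ((ZMod.val_eq_zero t).mp hv)
    obtain ⟨k, hk⟩ := Nat.exists_eq_succ_of_ne_zero hv
    have h3 : zp a t = a ^ (k + 1) := by unfold zp; rw [hk]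
    rw [hk]
    exact opp_pow k hs hab.1 hab.2 h (h3 ▸ hc)
  have h3 : zp c t = b := h2
  have h4 : c = zp b t⁻¹ := by
    have := zp_mul hcp t t⁻¹
    rw [mul_inv_cancel₀ ht, zp_one, h3] at this
    exact this
  rw [← h4]; exact hc

/-- Steinberg data from an opposite pair -/
def steinOfOpp (hs : IsSpecialRankOnePair A B) (hab : HasAbelianUnipotents A B) (hA : ∀ a ∈ A, a ^ p = 1)
    {a b : G} (h : Opp A B a b) : SteinData (ZMod p) G where
  x := zp a
  y := zp b
  x_add := zp_add (hA a h.ha)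
  y_add := zp_add (pow_p_right hs hA h.hb)
  braid := by
    intro t ht
    rw [zp_neg (pow_p_right hs hA h.hb)]
    exact braid hs (opp_zp hs hab hA h ht)
  conj_x := by
    intro t s ht
    have hbp := pow_p_right hs hA h.hb
    have hap := hA a h.ha
    have h1 := nn_conj_a hs (opp_zp hs hab hA h ht)
    unfold nn at h1
    rw [← zp_neg hbp] at h1
    set w := zp a t * zp b (-t⁻¹) * zp a t with hw
    have h2 : (w⁻¹ * zp a t * w⁻¹⁻¹) ^ (s / t).val = (zp b (-t⁻¹)) ^ (s / t).val := by rw [inv_inv, h1]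
    rw [conj_pow, ← zp_mul hap, ← zp_mul hbp, inv_inv, mul_div_cancel₀ s ht] at h2
    have h3 : -t⁻¹ * (s / t) = -(s / t ^ 2) := by field_simp
    rw [h3] at h2
    rw [← h2]; group
  conj_y := by
    intro t s ht
    have hbp := pow_p_right hs hA h.hb
    have hap := hA a h.ha
    have h1 := nn_conj_b hs (opp_zp hs hab hA h ht)
    unfold nn at h1
    rw [← zp_neg hbp] at h1
    set w := zp a t * zp b (-t⁻¹) * zp a t with hw
    have h2 : (w⁻¹ * zp b (-t⁻¹) * w⁻¹⁻¹) ^ (-(t * s)).val = (zp a t) ^ (-(t * s)).val := by rw [inv_inv, h1]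
    rw [conj_pow, ← zp_mul hap, ← zp_mul hbp, inv_inv] at h2
    have h3 : -t⁻¹ * (-(t * s)) = s := by field_simp
    have h4 : t * -(t * s) = -(t ^ 2 * s) := by ring
    rw [h3, h4] at h2
    rw [← h2]; group

section

variable (hs : IsSpecialRankOnePair A B) (hab : HasAbelianUnipotents A B) (hA : ∀ a ∈ A, a ^ p = 1)
    {a b : G} (h : Opp A B a b)

theorem steinOfOpp_x (t : ZMod p) : (steinOfOpp hs hab hA h).x t = zp a t := rfl
theorem steinOfOpp_y (t : ZMod p) : (steinOfOpp hs hab hA h).y t = zp b t := rfl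

theorem steinOfOpp_w (t : ZMod p) : (steinOfOpp hs hab hA h).w t = nn (zp a t) (zp b t⁻¹) := by
  unfold SteinData.w nn
  rw [steinOfOpp_x, steinOfOpp_y, zp_neg (pow_p_right hs hA h.hb)]

theorem steinOfOpp_K : (steinOfOpp hs hab hA h).K = Subgroup.closure {a, b} := by
  unfold SteinData.K
  apply le_antisymm
  · rw [Subgroup.closure_le]
    rintro g (⟨t, rfl⟩ | ⟨t, rfl⟩)
    · have h1 : a ∈ Subgroup.closure ({a, b} : Set G) := Subgroup.subset_closure (Or.inl rfl)
      exact zp_mem h1 t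
    · have h1 : b ∈ Subgroup.closure ({a, b} : Set G) := Subgroup.subset_closure (Or.inr rfl)
      exact zp_mem h1 t
  · rw [Subgroup.closure_le]
    rintro g (rfl | hg)
    · exact Subgroup.subset_closure (Or.inl ⟨1, zp_one _⟩)
    · rw [Set.mem_singleton_iff] at hg
      subst hg
      exact Subgroup.subset_closure (Or.inr ⟨1, zp_one _⟩)

theorem steinOfOpp_ker {g : Matrix.SpecialLinearGroup (Fin 2) (ZMod p)} (hg : (steinOfOpp hs hab hA h).phi g = 1) :
    g = 1 ∨ g = -1 := by
  set D := steinOfOpp hs hab hA h with hD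
  have hAn : ∀ t : ZMod p, t ≠ 0 → conjBy A (D.w t)⁻¹ = B := by
    intro t ht
    rw [hD, steinOfOpp_w]; exact conjBy_A_nn hs (opp_zp hs hab hA h ht)
  have hBn : ∀ t : ZMod p, t ≠ 0 → conjBy B (D.w t)⁻¹ = A := by
    intro t ht
    rw [hD, steinOfOpp_w]; exact conjBy_B_nn (opp_zp hs hab hA h ht)
  have hxA : ∀ t, D.x t ∈ A := fun t => zp_mem h.ha t
  have hdet := sl_det g
  have hg' : D.phiFun g = 1 := hg
  by_cases hc : (g : Matrix (Fin 2) (Fin 2) (ZMod p)) 1 0 = 0
  · rw [D.phi_of_zero hc] at hg'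
    rw [hc, mul_zero, sub_zero] at hdet
    generalize hra : (g : Matrix (Fin 2) (Fin 2) (ZMod p)) 0 0 = r at *
    generalize hrb : (g : Matrix (Fin 2) (Fin 2) (ZMod p)) 0 1 = s at *
    generalize hrd : (g : Matrix (Fin 2) (Fin 2) (ZMod p)) 1 1 = d at *
    have hr0 : r ≠ 0 := by rintro rfl; simp at hdet
    have h1 : D.h r = D.x (-(r * s)) := by
      rw [D.x_neg]; exact (eq_inv_of_mul_eq_one_right hg')
    have h2 : conjBy B (D.h r) = B := by
      have h3 : D.h r = D.w r * (D.w 1)⁻¹ := rfl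
      rw [h3, conjBy_mul, hBn 1 one_ne_zero, conjBy_inv_eq, hBn r hr0]
    have h3 : D.x (-(r * s)) = 1 := by
      apply eq_one_of_conj hs.1 (hxA _)
      rw [← h1]; exact h2
    have h4 : r * s = 0 := by
      have := (zp_eq_one (hA a h.ha) h.ha1).mp h3
      simpa using this
    have hs0 : s = 0 := by
      rcases mul_eq_zero.mp h4 with h5 | h5
      · exact absurd h5 hr0
      · exact h5
    have h5 : D.h r = 1 := by rw [h1, h3]
    have h6 := D.xh hr0 1
    rw [h5, mul_one, one_mul] at h6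
    have h7 : D.x (1 - 1 / r ^ 2) = 1 := by
      rw [sub_eq_add_neg, D.x_add, D.x_neg, h6, mul_inv_cancel]
    have h8 : (1 : ZMod p) - 1 / r ^ 2 = 0 := (zp_eq_one (hA a h.ha) h.ha1).mp h7
    have h9 : r ^ 2 = 1 := by
      field_simp at h8
      linear_combination h8
    have h10 : r = 1 ∨ r = -1 := mul_self_eq_one_iff.mp (by rw [← pow_two]; exact h9)
    rcases h10 with h10 | h10
    · left
      subst h10
      rw [one_mul] at hdet
      apply sl_ext
      · rw [hra]; simp
      · rw [hrb, hs0]; simp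
      · rw [hc]; simp
      · rw [hrd, hdet]; simp
    · right
      subst h10
      apply sl_ext
      · rw [hra]; simp
      · rw [hrb, hs0]; simp
      · rw [hc]; simp
      · rw [hrd]
        simp only [Matrix.SpecialLinearGroup.coe_neg, Matrix.neg_apply, Matrix.SpecialLinearGroup.coe_one, Matrix.one_apply_eq]
        linear_combination -hdet
  · exfalso
    rw [D.phi_of_ne hc] at hg'
    have hc' : -((g : Matrix (Fin 2) (Fin 2) (ZMod p)) 1 0)⁻¹ ≠ 0 := neg_ne_zero.mpr (inv_ne_zero hc)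
    have h1 : D.w (-((g : Matrix (Fin 2) (Fin 2) (ZMod p)) 1 0)⁻¹) ∈ A := by
      have h2 : ∀ u v w : G, u * v * w = 1 → v = u⁻¹ * w⁻¹ := by
        intro u v w huvw
        rw [eq_inv_mul_iff_mul_eq, eq_inv_iff_mul_eq_one]; exact huvw
      rw [h2 _ _ _ hg']
      exact A.mul_mem (A.inv_mem (hxA _)) (A.inv_mem (hxA _))
    have h2 := hAn _ hc'
    rw [conjBy_eq_of_mem (A.inv_mem h1)] at h2
    exact hs.1.ne h2

include hs hab hA h in
/-- the subgroup generated by an opposite pair is SL₂(p) or PSL₂(p) -/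
theorem closure_opp_equiv :
    Nonempty (↥(Subgroup.closure ({a, b} : Set G)) ≃* Matrix.SpecialLinearGroup (Fin 2) (ZMod p)) ∨
    Nonempty (↥(Subgroup.closure ({a, b} : Set G)) ≃* Matrix.ProjectiveSpecialLinearGroup (Fin 2) (ZMod p)) := by
  set D := steinOfOpp hs hab hA h with hD
  have hrange : D.phi.range = Subgroup.closure ({a, b} : Set G) := by
    rw [D.range_phi, hD, steinOfOpp_K]
  rw [← hrange]
  by_cases hk : D.phi.ker = ⊥
  · left
    have hinj : Function.Injective D.phi := (MonoidHom.ker_eq_bot_iff _).mp hk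
    exact ⟨(MonoidHom.ofInjective hinj).symm⟩
  · right
    have hle : ∀ g ∈ D.phi.ker, g = 1 ∨ g = -1 := fun g hg => steinOfOpp_ker hs hab hA h hg
    obtain ⟨⟨g, hg⟩, hg1⟩ := (Subgroup.ne_bot_iff_exists_ne_one.mp hk)
    have hker : D.phi.ker = Subgroup.center (Matrix.SpecialLinearGroup (Fin 2) (ZMod p)) := by
      have hneg : (-1 : Matrix.SpecialLinearGroup (Fin 2) (ZMod p)) ∈ D.phi.ker := by
        rcases hle g hg with rfl | rfl
        · exact absurd rfl hg1
        · exact hg
      ext z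
      constructor
      · intro hz
        rcases hle z hz with rfl | rfl
        · exact Subgroup.one_mem _
        · rw [Matrix.SpecialLinearGroup.mem_center_iff]
          refine ⟨-1, by simp, ?_⟩
          ext i j
          fin_cases i <;> fin_cases j <;> simp
      · intro hz
        rw [Matrix.SpecialLinearGroup.mem_center_iff] at hz
        obtain ⟨r, hr, hrz⟩ := hz
        rw [Fintype.card_fin] at hr
        have h10 : r = 1 ∨ r = -1 := mul_self_eq_one_iff.mp (by rw [← pow_two]; exact hr)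
        rcases h10 with rfl | rfl
        · have : z = 1 := by
            apply Subtype.ext
            rw [← hrz]; simp
          rw [this]; exact Subgroup.one_mem _
        · have : z = -1 := by
            apply Subtype.ext
            rw [← hrz]
            ext i j
            fin_cases i <;> fin_cases j <;> simp
          rw [this]; exact hneg
    exact ⟨((QuotientGroup.quotientKerEquivRange D.phi).symm.trans (QuotientGroup.quotientMulEquivOfEq hker))⟩

end

end Cfsg.Agent.RankOne
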