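import Cfsg.Agent.RankOne.Normal

set_option autoImplicit false

/-!
# Abstract root subgroups: basic facts
-/

namespace Cfsg.Agent.RankOne

open Cfsg
open scoped commutatorElement

variable {G : Type*} [Group G] {A B : Subgroup G}

theorem unipotent_congr (h : IsRankOnePair A B) {C D : Subgroup G} (hC : C ∈ unipotentSubgroups A B)
    (hD : D ∈ unipotentSubgroups A B) (hCD : C ≠ D) : unipotentSubgroups C D = unipotentSubgroups A B := by
  have hs := sup_of_mem h hC hD hCD
  obtain ⟨y, hy, rfl⟩ := hC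
  ext E
  constructor
  · rintro ⟨x, hx, rfl⟩
    rw [hs] at hx
    exact ⟨x * y, Subgroup.mul_mem _ hx hy, by rw [conjBy_conjBy]⟩
  · rintro ⟨x, hx, rfl⟩
    refine ⟨x * y⁻¹, ?_, by rw [conjBy_conjBy, inv_mul_cancel_right]⟩
    rw [hs]
    exact Subgroup.mul_mem _ hx (Subgroup.inv_mem _ hy)

theorem exists_conjBy_right_of_eq {C : Subgroup G} (hAB : IsRankOnePair A B) (hCB : IsRankOnePair C B)
    {a c : G} (ha : a ∈ A) (hc : c ∈ C) (ha1 : a ≠ 1) (hc1 : c ≠ 1) (he : conjBy B a = conjBy B c) :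
    ∃ b ∈ B, C = conjBy A b := by
  obtain ⟨b, hb, -, h1⟩ := hAB.cond_left a⁻¹ (A.inv_mem ha) (by simpa using ha1)
  obtain ⟨b', hb', -, h2⟩ := hCB.cond_left c⁻¹ (C.inv_mem hc) (by simpa using hc1)
  rw [inv_inv] at h1 h2
  refine ⟨b' * b⁻¹, B.mul_mem hb' (B.inv_mem hb), ?_⟩
  rw [conjBy_mul, h1, he, ← h2, conjBy_conjBy, mul_inv_cancel, conjBy_one]

/-- two subgroups commute elementwise iff commutator trivial -/
theorem commute_of_commutator_eq_bot {A B : Subgroup G} (h : ⁅A, B⁆ = ⊥) {a b : G} (ha : a ∈ A) (hb : b ∈ B) :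
    a * b = b * a := by
  have h1 : ⁅a, b⁆ ∈ ⁅A, B⁆ := Subgroup.commutator_mem_commutator ha hb
  rw [h, Subgroup.mem_bot, commutatorElement_eq_one_iff_mul_comm] at h1
  exact h1

theorem commutator_eq_bot_of {A B : Subgroup G} (h : ∀ a ∈ A, ∀ b ∈ B, a * b = b * a) : ⁅A, B⁆ = ⊥ := by
  rw [Subgroup.commutator_eq_bot_iff_le_centralizer]
  intro a ha
  rw [Subgroup.mem_centralizer_iff]
  intro b hb
  exact (h a ha b hb).symm

section Root

variable {S : Set (Subgroup G)}

theorem comm_case_commute (hS : IsRootSubgroupSet S) (hA : A ∈ S) (h : RootCommutatorCase S A B) {b : G} (hb : b ∈ B) :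
    ∀ a ∈ A, ∀ a' ∈ conjBy A b, a * a' = a' * a := by
  intro a ha a' ha'
  rw [mem_conjBy] at ha'
  have h1 : ⁅b, b⁻¹ * a' * b⁆ ∈ ⁅A, B⁆ := by
    rw [Subgroup.commutator_comm]; exact Subgroup.commutator_mem_commutator hb ha'
  have h2 : a' = ⁅b, b⁻¹ * a' * b⁆ * (b⁻¹ * a' * b) := by
    rw [commutatorElement_def]; group
  have h3 := h.2.1 _ h1 a (mem_sup_left' ha)
  have h4 := mulComm_of (hS.commutative A hA) ha ha'
  generalize ⁅b, b⁻¹ * a' * b⁆ = k at h2 h3
  generalize b⁻¹ * a' * b = w at h2 h4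
  subst h2
  rw [← mul_assoc, ← h3, mul_assoc, h4, mul_assoc]

theorem RootCommutatorCase_symm (h : RootCommutatorCase S A B) : RootCommutatorCase S B A := by
  obtain ⟨h1, h2, h3, h4⟩ := h
  refine ⟨?_, ?_, ?_, ?_⟩
  · rwa [Subgroup.commutator_comm]
  · rw [Subgroup.commutator_comm, sup_comm]; exact h2
  · intro b hb hb1
    rw [Subgroup.commutator_comm, ← h4 b hb hb1]
    apply le_antisymm
    · rw [Subgroup.closure_le]
      rintro _ ⟨a, ha, rfl⟩
      have : b * a * b⁻¹ * a⁻¹ = (a * b * a⁻¹ * b⁻¹)⁻¹ := by group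
      show b * a * b⁻¹ * a⁻¹ ∈ _
      rw [this]
      exact Subgroup.inv_mem _ (Subgroup.subset_closure ⟨a, ha, rfl⟩)
    · rw [Subgroup.closure_le]
      rintro _ ⟨a, ha, rfl⟩
      have : a * b * a⁻¹ * b⁻¹ = (b * a * b⁻¹ * a⁻¹)⁻¹ := by group
      show a * b * a⁻¹ * b⁻¹ ∈ _
      rw [this]
      exact Subgroup.inv_mem _ (Subgroup.subset_closure ⟨a, ha, rfl⟩)
  · intro a ha ha1
    rw [Subgroup.commutator_comm, ← h3 a ha ha1]
    apply le_antisymm
    · rw [Subgroup.closure_le]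
      rintro _ ⟨b, hb, rfl⟩
      have : b * a * b⁻¹ * a⁻¹ = (a * b * a⁻¹ * b⁻¹)⁻¹ := by group
      show b * a * b⁻¹ * a⁻¹ ∈ _
      rw [this]
      exact Subgroup.inv_mem _ (Subgroup.subset_closure ⟨b, hb, rfl⟩)
    · rw [Subgroup.closure_le]
      rintro _ ⟨b, hb, rfl⟩
      have : a * b * a⁻¹ * b⁻¹ = (b * a * b⁻¹ * a⁻¹)⁻¹ := by group
      show a * b * a⁻¹ * b⁻¹ ∈ _
      rw [this]
      exact Subgroup.inv_mem _ (Subgroup.subset_closure ⟨b, hb, rfl⟩)

theorem pair_not_commute (h : IsRankOnePair A B) : ¬ ∀ a ∈ A, ∀ b ∈ B, a * b = b * a :=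
  fun hc => commutator_ne_bot h (commutator_eq_bot_of hc)

/-- If C, B are in S and some c ∈ C takes B to an opposite of B then (C, B) is a rank one pair -/
theorem pair_of_conj (hS : IsRootSubgroupSet S) {C : Subgroup G} (hB : B ∈ S) (hC : C ∈ S) {c : G} (hc : c ∈ C)
    (h : IsRankOnePair B (conjBy B c)) : IsRankOnePair C B := by
  rcases hS.pair C hC B hB with h1 | h1 | h1
  · exfalso
    apply h.ne
    symm
    apply conjBy_of_centralizer
    intro b hb
    exact commute_of_commutator_eq_bot h1 hc hb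
  · exact h1
  · exfalso
    exact pair_not_commute h (comm_case_commute hS hB (RootCommutatorCase_symm h1) hc)

theorem partner_of_not_isolated (hA : ¬ IsIsolatedIn (FAdj S) S A) (hAS : A ∈ S) :
    ∃ B ∈ S, IsRankOnePair A B := by
  unfold IsIsolatedIn at hA
  push Not at hA
  obtain ⟨B, hB⟩ := hA hAS
  by_cases h1 : FAdj S A B
  · exact ⟨B, h1.2.1, h1.2.2⟩
  · obtain ⟨h2, h3, h4⟩ := hB h1
    exact ⟨B, h2, symm h4⟩

theorem inf_eq_bot_or_eq (hS : IsRootSubgroupSet S) {A B : Subgroup G} (hBS : B ∈ S)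
    (hAB : IsRankOnePair A B) {C : Subgroup G} (hC : C ∈ S) : A ⊓ C = ⊥ ∨ A = C := by
  by_cases hbot : A ⊓ C = ⊥
  · left; exact hbot
  right
  have hex : ∃ a ∈ A ⊓ C, a ≠ 1 := by
    by_contra hc
    push Not at hc
    exact hbot ((Subgroup.eq_bot_iff_forall _).mpr hc)
  obtain ⟨a, ha, ha1⟩ := hex
  rw [Subgroup.mem_inf] at ha
  have hBm := right_mem_unipotent hAB
  have hBa := conjBy_mem_unipotent hBm (mem_sup_left' (B := B) ha.1)
  have h1 : IsRankOnePair B (conjBy B a) := pair_of_mem hAB hBm hBa (conjBy_ne hAB ha.1 ha1).symm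
  have h2 : IsRankOnePair C B := pair_of_conj hS hBS hC ha.2 h1
  obtain ⟨b, hb, hCb⟩ := exists_conjBy_right_of_eq hAB h2 ha.1 ha.2 ha1 ha1 rfl
  by_contra hne
  apply ha1
  have hCm : C ∈ unipotentSubgroups A B := by
    rw [hCb]; exact conjBy_mem_unipotent left_mem_unipotent (mem_sup_right' hb)
  exact eq_one_of_conj_mem hAB left_mem_unipotent hCm hne ha.1 (conjBy_eq_of_mem ha.2)

theorem mem_unipotent_of_le (hS : IsRootSubgroupSet S) {C D : Subgroup G} (hA : A ∈ S) (hC : C ∈ S)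
    (hAB : IsRankOnePair A B) (hCD : IsRankOnePair C D) (hle : A ⊔ B ≤ C ⊔ D) : A ∈ unipotentSubgroups C D := by
  obtain ⟨a, ha, ha1⟩ := exists_ne_one_left hAB
  have haY : a ∈ C ⊔ D := hle (mem_sup_left' ha)
  have hex : ∃ E ∈ unipotentSubgroups C D, conjBy E a ≠ E := by
    by_contra hcon
    push Not at hcon
    have h1 := mem_centralizer_of_fix hCD hcon
    obtain ⟨b, hb, hab⟩ := not_commute hAB ha ha1
    exact hab ((Subgroup.mem_centralizer_iff.mp h1) b (hle (mem_sup_right' hb))).symm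
  obtain ⟨E, hE, hEa⟩ := hex
  have hEaM := conjBy_mem_unipotent hE haY
  have hES : E ∈ S := by
    obtain ⟨x, -, rfl⟩ := hE
    exact hS.conj_mem C hC x
  have h2 : IsRankOnePair A E := pair_of_conj hS hES hA ha (pair_of_mem hCD hE hEaM (Ne.symm hEa))
  obtain ⟨e, he, -, h3⟩ := h2.cond_left a⁻¹ (A.inv_mem ha) (by simpa using ha1)
  rw [inv_inv, conjBy_inv_eq, inv_inv] at h3
  rw [h3]
  exact conjBy_mem_unipotent hEaM (unipotent_le hE he)

theorem central_translate (hS : IsRootSubgroupSet S) (hB : B ∈ S) (hAB : IsRankOnePair A B) {z : G}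
    (hz : z ∈ Subgroup.centralizer ((A ⊔ B : Subgroup G) : Set G)) (hz1 : z ≠ 1) {a : G} (ha : a ∈ A)
    (ha1 : a ≠ 1) : z * a ∉ rootElements S := by
  rintro ⟨hza, C, hC, hzaC⟩
  rw [Subgroup.mem_centralizer_iff] at hz
  have hBm := right_mem_unipotent hAB
  have hBa := conjBy_mem_unipotent hBm (mem_sup_left' (B := B) ha)
  have h0 : conjBy B (z * a) = conjBy B a := by
    rw [conjBy_mul]
    apply conjBy_of_centralizer
    intro x hx
    exact (hz x (unipotent_le hBa hx)).symm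
  have h1 : IsRankOnePair B (conjBy B (z * a)) := by
    rw [h0]; exact pair_of_mem hAB hBm hBa (conjBy_ne hAB ha ha1).symm
  have h2 : IsRankOnePair C B := pair_of_conj hS hB hC hzaC h1
  obtain ⟨b, hb, hCb⟩ := exists_conjBy_right_of_eq hAB h2 ha hzaC ha1 hza h0.symm
  have hCm : C ∈ unipotentSubgroups A B := by
    rw [hCb]; exact conjBy_mem_unipotent left_mem_unipotent (mem_sup_right' hb)
  by_cases hCA : C = A
  · apply hz1
    have hzA : z ∈ A := by
      rw [hCA] at hzaC
      exact (Subgroup.mul_mem_cancel_right _ ha).mp hzaC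
    apply eq_one_of_conj hAB hzA
    apply conjBy_of_centralizer
    intro x hx
    exact (hz x (mem_sup_right' hx)).symm
  · apply hza
    apply eq_one_of_conj_mem hAB hCm left_mem_unipotent hCA hzaC
    rw [conjBy_mul, conjBy_eq_of_mem ha]
    apply conjBy_of_centralizer
    intro x hx
    exact (hz x (mem_sup_left' hx)).symm

theorem eq_top_of_generates (hS : IsRootSubgroupSet S) {H : Subgroup G} (h : ∀ A ∈ S, A ≤ H) : H = ⊤ := by
  rw [eq_top_iff, ← hS.generates]
  exact iSup₂_le h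

theorem second_centre (hS : IsRootSubgroupSet S) (hF : ∀ A ∈ S, ¬ IsIsolatedIn (FAdj S) S A) :
    Subgroup.upperCentralSeries G 2 = Subgroup.center G := by
  apply le_antisymm
  · intro z hz
    rw [Subgroup.mem_upperCentralSeries_succ_iff] at hz
    rw [Subgroup.upperCentralSeries_one] at hz
    have hle : ∀ A ∈ S, A ≤ Subgroup.centralizer ({z} : Set G) := by
      intro A hA a ha
      rw [Subgroup.mem_centralizer_iff]
      rintro _ rfl
      rename_i z
      by_cases ha1 : a = 1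
      · rw [ha1]; simp
      obtain ⟨B, hB, hAB⟩ := partner_of_not_isolated (hF A hA) hA
      by_contra hne
      have h1 : ⁅z, a⁆ ≠ 1 := by
        intro hc
        rw [commutatorElement_eq_one_iff_mul_comm] at hc
        exact hne hc
      have h2 := central_translate hS hB hAB (z := ⁅z, a⁆) (by
        rw [Subgroup.mem_centralizer_iff]
        intro x _
        exact Subgroup.mem_center_iff.mp (hz a) x) h1 ha ha1
      apply h2
      have h3 : ⁅z, a⁆ * a = z * a * z⁻¹ := by rw [commutatorElement_def]; group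
      rw [h3]
      refine ⟨?_, conjBy A z, hS.conj_mem A hA z, conj_mem_conjBy z ha⟩
      intro hc
      apply ha1
      have : a = z⁻¹ * (z * a * z⁻¹) * z := by group
      rw [this, hc]; group
    have htop := eq_top_of_generates hS hle
    rw [Subgroup.mem_center_iff]
    intro g
    have hg : g ∈ Subgroup.centralizer ({z} : Set G) := by rw [htop]; exact Subgroup.mem_top g
    exact (Subgroup.mem_centralizer_iff.mp hg z (Set.mem_singleton z)).symm
  · rw [← Subgroup.upperCentralSeries_one]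
    exact Subgroup.upperCentralSeries_mono G (by norm_num)

end Root

end Cfsg.Agent.RankOne
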