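import Cfsg.Agent.RankOne.Recog
import Cfsg.Agent.FStar.Basic

set_option autoImplicit false

/-!
# Structure of special rank one groups with abelian unipotent subgroups
-/

namespace Cfsg.Agent.RankOne

open Cfsg
open scoped commutatorElement

variable {G : Type*} [Group G] {A B : Subgroup G}

theorem mem_diag_of {g : G} (hg : g ∈ A ⊔ B) (h1 : conjBy A g = A) (h2 : conjBy B g = B) : g ∈ rankOneDiagonal A B :=
  Subgroup.mem_inf.mpr ⟨Subgroup.mem_inf.mpr ⟨hg, conjBy_eq_self_iff.mp h1⟩, conjBy_eq_self_iff.mp h2⟩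

theorem conjBy_diag_left {g : G} (hg : g ∈ rankOneDiagonal A B) : conjBy A g = A :=
  conjBy_eq_self_iff.mpr (Subgroup.mem_inf.mp (Subgroup.mem_inf.mp hg).1).2

theorem commutator_diag_le : ⁅A, rankOneDiagonal A B⁆ ≤ A := by
  rw [Subgroup.commutator_le]
  intro a ha g hg
  rw [commutatorElement_def]
  have h1 : g * a⁻¹ * g⁻¹ ∈ A := by
    have := conj_mem_conjBy g (A.inv_mem ha)
    rwa [conjBy_diag_left hg] at this
  have : a * g * a⁻¹ * g⁻¹ = a * (g * a⁻¹ * g⁻¹) := by group
  rw [this]; exact A.mul_mem ha h1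

section Special

variable (hs : IsSpecialRankOnePair A B) (hA : IsMulCommutative A)

include hs in
theorem nn_nn_mem {a b x c : G} (h : Opp A B a b) (hx : Opp A B x c) : (nn a b)⁻¹ * nn x c ∈ rankOneDiagonal A B := by
  have h1 := conjBy_A_nn hs h
  have h2 := conjBy_B_nn h
  have h3 := conjBy_A_nn hs hx
  have h4 := conjBy_B_nn hx
  apply mem_diag_of
  · exact Subgroup.mul_mem _ (Subgroup.inv_mem _ (nn_mem_sup h)) (nn_mem_sup hx)
  · rw [conjBy_mul]
    have : conjBy A (nn x c) = B := by rw [conjBy_inv_eq, h4]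
    rw [this, h2]
  · rw [conjBy_mul]
    have : conjBy B (nn x c) = A := by rw [conjBy_inv_eq, h3]
    rw [this, h1]

include hs in
/-- θ(c) ≡ x⁻¹ modulo ⁅A, H⁆ -/
theorem theta_mem {a b x c : G} (h : Opp A B a b) (hx : Opp A B x c) :
    (nn a b)⁻¹ * c * nn a b * x ∈ ⁅A, rankOneDiagonal A B⁆ := by
  have h1 := nn_conj_b hs hx
  have h2 : c = nn x c * x⁻¹ * (nn x c)⁻¹ := by
    have : c⁻¹ = nn x c * ((nn x c)⁻¹ * c⁻¹ * nn x c) * (nn x c)⁻¹ := by group
    rw [h1] at this
    rw [← inv_inj, this]; group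
  have hk := nn_nn_mem hs h hx
  set k := (nn a b)⁻¹ * nn x c with hkdef
  have h3 : (nn a b)⁻¹ * c * nn a b * x = ⁅k, x⁻¹⁆ := by
    rw [commutatorElement_def, hkdef]
    conv_lhs => rw [h2]
    group
  rw [h3, Subgroup.commutator_comm]
  exact Subgroup.commutator_mem_commutator hk (A.inv_mem hx.ha)

include hs hA in
theorem key_mod {a x : G} (ha : a ∈ A) (ha1 : a ≠ 1) (hx : x ∈ A) (hx1 : x ≠ 1) (hxa : x * a ≠ 1) :
    x * x * a ∈ ⁅A, rankOneDiagonal A B⁆ := by
  obtain ⟨b, hb⟩ := exists_opp hs.1 ha ha1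
  obtain ⟨c, hc⟩ := exists_opp hs.1 hx hx1
  obtain ⟨d, hd⟩ := exists_opp hs.1 (A.mul_mem hx ha) hxa
  have hdb : d * b⁻¹ ≠ 1 := by
    intro he
    rw [mul_inv_eq_one] at he
    subst he
    have := hb.unique_left hs.1 hd
    exact hx1 (right_eq_mul.mp this)
  obtain ⟨z, hz⟩ := exists_opp' hs.1 (B.mul_mem hd.hb (B.inv_mem hb.hb)) hdb
  have hI := key_identity hs hb hc hd hz
  set W := ⁅A, rankOneDiagonal A B⁆ with hW
  set n := nn a b with hn
  have e1 : z * a * x ∈ W := by
    have := theta_mem hs hb hc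
    rwa [hI] at this
  have e2 : n⁻¹ * d * n * (x * a) ∈ W := theta_mem hs hb hd
  have e3 : n⁻¹ * d * n * (a * z) ∈ W := by
    have h1 := theta_mem hs hb hz
    have h2 := nn_conj_b hs hb
    rw [← hn] at h1 h2
    have h3 : n⁻¹ * (d * b⁻¹) * n * z = n⁻¹ * d * n * (n⁻¹ * b⁻¹ * n) * z := by group
    rw [h3, h2, mul_assoc _ a z] at h1
    exact h1
  have e4 : (a * z)⁻¹ * (x * a) ∈ W := by
    have := W.mul_mem (W.inv_mem e3) e2
    have h5 : (n⁻¹ * d * n * (a * z))⁻¹ * (n⁻¹ * d * n * (x * a)) = (a * z)⁻¹ * (x * a) := by group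
    rwa [h5] at this
  have e5 := W.mul_mem e1 e4
  have e6 : z * a * x * ((a * z)⁻¹ * (x * a)) = x * x * a := by
    have c1 : z * a * x = x * (z * a) := mulComm_of hA (A.mul_mem hz.ha ha) hx
    have c2 : z * a = a * z := mulComm_of hA hz.ha ha
    rw [c1, c2]; group
  rwa [e6] at e5

include hs hA in
theorem commutator_diag_eq (hcard : 3 < ENat.card A) : ⁅A, rankOneDiagonal A B⁆ = A := by
  apply le_antisymm commutator_diag_le
  intro a ha
  set W := ⁅A, rankOneDiagonal A B⁆ with hW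
  by_cases ha1 : a = 1
  · rw [ha1]; exact W.one_mem
  obtain ⟨x, hx, hx1, hxa, hxa'⟩ : ∃ x ∈ A, x ≠ 1 ∧ x ≠ a ∧ x ≠ a⁻¹ := by
    by_contra hc
    push Not at hc
    have hsub : (A : Set G) ⊆ {1, a, a⁻¹} := by
      intro x hx
      by_cases h1 : x = 1
      · left; exact h1
      by_cases h2 : x = a
      · right; left; exact h2
      · right; right; exact hc x hx h1 h2
    have h1 : ENat.card A ≤ 3 := by
      have : ENat.card A = (A : Set G).encard := rfl
      rw [this]
      refine (Set.encard_le_encard hsub).trans ?_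
      refine (Set.encard_insert_le _ _).trans ?_
      refine (add_le_add_left (Set.encard_insert_le _ _) 1).trans ?_
      rw [Set.encard_singleton]
      norm_num
    exact absurd hcard (not_lt.mpr h1)
  have hxi1 : x⁻¹ ≠ 1 := by simpa using hx1
  have p1 : x * x * a ∈ W := key_mod hs hA ha ha1 hx hx1 (fun h => hxa' (eq_inv_of_mul_eq_one_left h))
  have p2 : x⁻¹ * x⁻¹ * a ∈ W := key_mod hs hA ha ha1 (A.inv_mem hx) hxi1 (fun h => hxa (inv_mul_eq_one.mp h))
  have p3 : a * a * x ∈ W := key_mod hs hA hx hx1 ha ha1 (fun h => hxa' (eq_inv_of_mul_eq_one_right h))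
  have p4 : a * a ∈ W := by
    have := W.mul_mem p1 p2
    have c1 : x * x * a * (x⁻¹ * x⁻¹ * a) = a * a := by
      have c2 : x⁻¹ * x⁻¹ * a = a * (x⁻¹ * x⁻¹) := mulComm_of hA (A.mul_mem (A.inv_mem hx) (A.inv_mem hx)) ha
      have c3 : x * x * a = a * (x * x) := mulComm_of hA (A.mul_mem hx hx) ha
      rw [c2, c3]
      have : a * (x * x) * (a * (x⁻¹ * x⁻¹)) = a * ((x * x) * a) * (x⁻¹ * x⁻¹) := by group
      rw [this, c3]; group
    rwa [c1] at this
  have p5 : x ∈ W := by
    have := W.mul_mem (W.inv_mem p4) p3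
    simpa [mul_assoc] using this
  have p6 := W.mul_mem (W.inv_mem (W.mul_mem p5 p5)) p1
  simpa [mul_assoc] using p6

end Special

section Whole

variable {X : Type*} [Group X] {A B : Subgroup X}

theorem card_right_eq (h : IsRankOnePair A B) : Nat.card B = Nat.card A := by
  obtain ⟨x, -, hx⟩ := right_mem_unipotent h
  rw [hx]
  exact (Nat.card_congr (conjByEquiv A x).toEquiv).symm

theorem right_le_of_normal (h : IsRankOnePair A B) {N : Subgroup X} (hN : N.Normal) (hA : A ≤ N) : B ≤ N := by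
  obtain ⟨x, -, hx⟩ := right_mem_unipotent h
  rw [hx]
  rintro b ⟨a, ha, rfl⟩
  exact hN.conj_mem a (hA ha) x

theorem closure_singleton_of_card_prime {p : ℕ} [Fact p.Prime] {A : Subgroup X} (hc : Nat.card A = p) {a : X}
    (ha : a ∈ A) (ha1 : a ≠ 1) : Subgroup.closure {a} = A := by
  rw [← Subgroup.zpowers_eq_closure]
  have hfin : Finite A := Nat.finite_of_card_ne_zero (by rw [hc]; exact (Fact.out : p.Prime).ne_zero)
  have hle : Subgroup.zpowers a ≤ A := by rw [Subgroup.zpowers_le]; exact ha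
  have hd := Subgroup.card_dvd_of_le hle
  rw [hc, Nat.dvd_prime Fact.out] at hd
  rcases hd with h1 | h1
  · exfalso
    rw [Subgroup.card_eq_one, Subgroup.zpowers_eq_bot] at h1
    exact ha1 h1
  · exact Subgroup.eq_of_le_of_card_ge hle (by rw [hc, h1])

theorem top_equiv_of_card_prime (h : IsRankOneGroup X A B) (hs : IsSpecialRankOnePair A B)
    (hab : HasAbelianUnipotents A B) {p : ℕ} [Fact p.Prime] (hc : Nat.card A = p) :
    Nonempty (X ≃* Matrix.SpecialLinearGroup (Fin 2) (ZMod p)) ∨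
    Nonempty (X ≃* Matrix.ProjectiveSpecialLinearGroup (Fin 2) (ZMod p)) := by
  obtain ⟨a, ha, ha1⟩ := exists_ne_one_left h.2
  obtain ⟨b, hb⟩ := exists_opp h.2 ha ha1
  have hA : ∀ a ∈ A, a ^ p = 1 := by
    intro a ha
    have := pow_card_eq_one' (x := (⟨a, ha⟩ : A))
    rw [hc] at this
    exact congrArg Subtype.val this
  have htop : Subgroup.closure ({a, b} : Set X) = ⊤ := by
    rw [Set.insert_eq, Subgroup.closure_union, closure_singleton_of_card_prime hc ha ha1,
      closure_singleton_of_card_prime ((card_right_eq h.2).trans hc) hb.hb hb.hb1]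
    exact h.1
  have e : X ≃* ↥(Subgroup.closure ({a, b} : Set X)) := by
    rw [htop]; exact Subgroup.topEquiv.symm
  rcases closure_opp_equiv hs hab hA hb with ⟨⟨f⟩⟩ | ⟨⟨f⟩⟩
  · left; exact ⟨e.trans f⟩
  · right; exact ⟨e.trans f⟩

theorem zmod2_dec : ∀ r : ZMod 2, r ^ 2 = 1 → r = 1 := by decide

theorem structure_dichotomy (h : IsRankOneGroup X A B) (hs : IsSpecialRankOnePair A B)
    (hab : HasAbelianUnipotents A B) :
    (ENat.card A ≤ 3 ∧ (Nonempty (X ≃* Matrix.SpecialLinearGroup (Fin 2) (ZMod 2)) ∨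
        Nonempty (X ≃* Matrix.SpecialLinearGroup (Fin 2) (ZMod 3)) ∨
        Nonempty (X ≃* Matrix.ProjectiveSpecialLinearGroup (Fin 2) (ZMod 3)))) ∨
    (commutator X ⊔ A = ⊤ ∧ IsQuasisimple (commutator X) ∧
      3 < ENat.card ↥(⁅A, rankOneDiagonal A B⁆ : Subgroup X)) := by
  by_cases hcard : 3 < ENat.card A
  · right
    have hW := commutator_diag_eq hs hab.1 hcard
    have hle : A ≤ commutator X := by
      rw [← hW]
      exact Subgroup.commutator_mono le_top le_top
    have htop : commutator X = ⊤ := by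
      rw [eq_top_iff, ← h.1]
      exact sup_le hle (right_le_of_normal h.2 inferInstance hle)
    refine ⟨by rw [htop, top_sup_eq], ?_, by rw [hW]; exact hcard⟩
    have hp : Group.IsPerfect X := ⟨htop⟩
    have hq := quasisimple_of_perfect h hp
    rw [htop]
    exact Cfsg.Agent.FStar.isQuasisimple_of_equiv Subgroup.topEquiv.symm hq
  · left
    rw [not_lt] at hcard
    refine ⟨hcard, ?_⟩
    have hfin : Finite A := by
      rw [← ENat.card_lt_top]
      exact lt_of_le_of_lt hcard (by decide)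
    have hle3 : Nat.card A ≤ 3 := by
      rw [ENat.card_eq_coe_natCard] at hcard
      exact_mod_cast hcard
    have hgt1 : 1 < Nat.card A := by
      rw [Subgroup.one_lt_card_iff_ne_bot]
      exact ne_bot_left h.2
    have h23 : Nat.card A = 2 ∨ Nat.card A = 3 := by omega
    rcases h23 with h2 | h3
    · left
      have hp2 : Fact (Nat.Prime 2) := ⟨Nat.prime_two⟩
      rcases top_equiv_of_card_prime h hs hab h2 with h4 | ⟨⟨f⟩⟩
      · exact h4
      · have hc : Subgroup.center (Matrix.SpecialLinearGroup (Fin 2) (ZMod 2)) = ⊥ := by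
          rw [eq_bot_iff]
          intro z hz
          rw [Matrix.SpecialLinearGroup.mem_center_iff] at hz
          obtain ⟨r, hr, hrz⟩ := hz
          rw [Fintype.card_fin] at hr
          have : r = 1 := zmod2_dec r hr
          rw [Subgroup.mem_bot]
          apply Subtype.ext
          rw [← hrz, this]; simp
        exact ⟨f.trans ((QuotientGroup.quotientMulEquivOfEq hc).trans QuotientGroup.quotientBot)⟩
    · right
      have hp3 : Fact (Nat.Prime 3) := ⟨Nat.prime_three⟩
      exact top_equiv_of_card_prime h hs hab h3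

end Whole

end Cfsg.Agent.RankOne
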